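import Cfsg.Agent.PJ.Bw

/-!
# S3321: the group `K = 2^{3+12}.(S₅ × L₃(2))`

`θ : K → S₅ × L₃(2)` has kernel `L`, `σ` is a section over `S₅` centralising the element `y` of
order 7.  `S₅` acts on `Fin 5`; the four-group `F = {1, pf, pg, pf pg}` fixes `4`.
`L/Z = N ⊗ W` with `N` the natural `SL₂(4)`-module; `V0/Z = C_{L/Z}(F)`, `V = V0 F = 2^11`.
-/

set_option autoImplicit false

namespace Cfsg.Agent.PJ

open Subgroup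
open scoped commutatorElement

/-- `Sym(5)`. -/
abbrev S5 := Equiv.Perm (Fin 5)
/-- `L₃(2)`. -/
abbrev L32 := Matrix.SpecialLinearGroup (Fin 3) (ZMod 2)

/-- The 3-cycle `0 ↦ 1 ↦ 2 ↦ 0`. -/
def px : S5 := Equiv.swap 0 2 * Equiv.swap 0 1
/-- `(0 1)`. -/
def ps : S5 := Equiv.swap 0 1
/-- `(0 1)(3 4)`. -/
def pr : S5 := Equiv.swap 0 1 * Equiv.swap 3 4
/-- `(0 1)(2 3)`. -/
def pf : S5 := Equiv.swap 0 1 * Equiv.swap 2 3
/-- `px pf px⁻¹ = (1 2)(0 3)`. -/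
def pg : S5 := Equiv.swap 1 2 * Equiv.swap 0 3

theorem perm_rel : px * pf * px⁻¹ = pg ∧ px * pg * px⁻¹ = pf * pg ∧ ps * px * ps⁻¹ = px⁻¹ ∧
    pr * px * pr⁻¹ = px⁻¹ ∧ ps * pr = pr * ps ∧ ps * pf = pf * ps ∧ ps * pg * ps⁻¹ = pf * pg ∧
    px⁻¹ * pf * px * pf = pg ∧ pf * pg = pg * pf ∧ ps * ps = 1 ∧ pr * pr = 1 ∧ pf * pf = 1 ∧
    pg * pg = 1 ∧ px * px * px = 1 := by decide +kernel

theorem orderOf_three {a : S5} (h : a * a * a = 1) (h1 : a ≠ 1) : orderOf a = 3 :=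
  orderOf_eq_prime (by rw [pow_succ, pow_two, h]) h1

/-- The hypotheses on `K`. -/
structure Base (G : Type*) [Group G] where
  /-- `N(Z)` -/
  K : Subgroup G
  /-- `O₂(K)` -/
  L : Subgroup G
  /-- `Z(L)` -/
  Z : Subgroup G
  /-- `K → K/L` -/
  θ : K →* S5 × L32
  /-- the section -/
  σ : S5 →* G
  /-- an element of order 7 -/
  y : G
  surj : Function.Surjective θ
  ker : ∀ k : K, θ k = 1 ↔ (k : G) ∈ L
  K_eq : K = normalizer (Z : Set G)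
  card_L : Nat.card L = 2 ^ 15
  card_Z : Nat.card Z = 8
  L_le : L ≤ K
  Z_le : Z ≤ L
  cen : ∀ l ∈ L, l ∈ Z ↔ ∀ m ∈ L, m * l = l * m
  comm : ∀ l ∈ L, ∀ m ∈ L, ⁅l, m⁆ ∈ Z
  sq : ∀ l ∈ L, l * l ∈ Z
  sqZ : ∀ z ∈ Z, z * z = 1
  gen : Z ≤ ⁅L, L⁆
  σ_mem : ∀ a, σ a ∈ K
  θσ : ∀ a, θ ⟨σ a, σ_mem a⟩ = (a, 1)
  y_mem : y ∈ K
  θy : (θ ⟨y, y_mem⟩).1 = 1
  y_pow : y ^ 7 = 1
  σy : ∀ a, σ a * y = y * σ a
  cx : ∀ a, orderOf a = 3 → ∀ l ∈ L, σ a * l = l * σ a ↔ l ∈ Z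
  cy : ∀ l ∈ L, y * l = l * y → l = 1
  lift : ∀ k : K, (θ k).1 = 1 → ∃ l ∈ L, l * k * σ px = σ px * (l * k)

/-- The matrix of `x` on `V`. -/
def Ax : List ℕ := [8, 16, 32, 9, 18, 36, 64, 128, 256, 1024, 1536]
/-- The matrix of `s` on `V`. -/
def As : List ℕ := [1, 2, 4, 9, 18, 36, 64, 128, 256, 512, 1536]
/-- The matrix of `y` on `V`. -/
def Ay : List ℕ := [2, 4, 3, 16, 32, 24, 192, 256, 64, 512, 1024]
/-- The matrix of `r u r` on `V`. -/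
def Ar0 : List ℕ := [1, 2, 4, 8, 272, 160, 64, 128, 256, 513, 1097]
/-- The matrix of `r (y u y⁻¹) r` on `V`. -/
def Ar1 : List ℕ := [1, 2, 4, 264, 16, 96, 64, 128, 256, 514, 1234]
/-- The matrix of `r (y² u y⁻²) r` on `V`. -/
def Ar2 : List ℕ := [1, 2, 4, 136, 80, 32, 64, 128, 256, 516, 1508]

namespace Base
variable {G : Type*} [Group G] (B : Base G)

/-- order 3 -/
def x : G := B.σ px
/-- the transposition -/
def s : G := B.σ ps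
/-- the Weyl element -/
def r : G := B.σ pr
/-- in `F` -/
def p0 : G := B.σ pf
/-- in `F` -/
def p1 : G := B.σ pg

theorem conj_Z {k z : G} (hk : k ∈ B.K) (hz : z ∈ B.Z) : k * z * k⁻¹ ∈ B.Z :=
  (mem_normalizer_iff.1 (B.K_eq ▸ hk) z).1 hz

theorem conj_L {k l : G} (hk : k ∈ B.K) (hl : l ∈ B.L) : k * l * k⁻¹ ∈ B.L :=
  (B.ker (⟨k, hk⟩ * ⟨l, B.L_le hl⟩ * ⟨k, hk⟩⁻¹)).1 (by
    rw [map_mul, map_mul, (B.ker ⟨l, B.L_le hl⟩).2 hl, mul_one, map_inv, mul_inv_cancel])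

/-- `V0/Z = C_{L/Z}(p0)`. -/
def V0 : Subgroup G where
  carrier := {l | l ∈ B.L ∧ ⁅l, B.p0⁆ ∈ B.Z}
  one_mem' := ⟨one_mem _, by rw [commutatorElement_one_left]; exact one_mem _⟩
  mul_mem' := fun {a b} ha hb => ⟨mul_mem ha.1 hb.1, by
    have e : ⁅a * b, B.p0⁆ = a * ⁅b, B.p0⁆ * a⁻¹ * ⁅a, B.p0⁆ := by
      simp only [commutatorElement_def]; group
    rw [e]; exact mul_mem (B.conj_Z (B.L_le ha.1) hb.2) ha.2⟩
  inv_mem' := fun {a} ha => ⟨inv_mem ha.1, by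
    have e : ⁅a⁻¹, B.p0⁆ = a⁻¹ * ⁅a, B.p0⁆⁻¹ * a⁻¹⁻¹ := by
      simp only [commutatorElement_def]; group
    rw [e]; exact B.conj_Z (inv_mem (B.L_le ha.1)) (inv_mem ha.2)⟩

theorem mem_V0 {l : G} : l ∈ B.V0 ↔ l ∈ B.L ∧ ⁅l, B.p0⁆ ∈ B.Z := Iff.rfl

/-- `V = V0 F`. -/
def V : Subgroup G := B.V0 ⊔ closure {B.p0, B.p1}

/-- `N_K(V)`. -/
def Y : Subgroup G := B.K ⊓ normalizer (B.V : Set G)

/-- The same data with `y⁻¹` for `y`. -/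
def flip : Base G :=
  { B with
    y := B.y⁻¹
    y_mem := inv_mem B.y_mem
    θy := by
      have : (⟨B.y⁻¹, inv_mem B.y_mem⟩ : B.K) = ⟨B.y, B.y_mem⟩⁻¹ := rfl
      rw [this, map_inv, Prod.fst_inv, B.θy, inv_one]
    y_pow := by rw [inv_pow, B.y_pow, inv_one]
    σy := fun a => (show Commute (B.σ a) B.y from B.σy a).inv_right
    cy := fun l hl h => B.cy l hl (by
      have := (show Commute B.y⁻¹ l from h).inv_left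
      rwa [inv_inv] at this) }

variable (u : G)

/-- `y u y⁻¹` -/
def u1 : G := B.y * u * B.y⁻¹
/-- `y² u y⁻²` -/
def u2 : G := B.y * B.u1 u * B.y⁻¹
/-- `r w r` -/
def ρ (w : G) : G := B.r * w * B.r⁻¹
/-- `x w x⁻¹` -/
def ξ (w : G) : G := B.x * w * B.x⁻¹
/-- first basis element of `Z` -/
def z1 : G := ⁅B.ρ (B.u1 u), B.ξ (B.u2 u)⁆
/-- second basis element of `Z` -/
def z2 : G := ⁅B.ρ u, B.ξ (B.u2 u)⁆
/-- third basis element of `Z` -/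
def z3 : G := ⁅B.ρ u, B.ξ (B.u1 u)⁆

/-- The basis of `V0`. -/
def E0 : List G := [u, B.u1 u, B.u2 u, B.ξ u, B.ξ (B.u1 u), B.ξ (B.u2 u), B.z1 u, B.z2 u, B.z3 u]

/-- The basis of `V`. -/
def E : List G := B.E0 u ++ [B.p0, B.p1]

/-- The basis of `A = 2^10`. -/
def EA : List G := [u, B.u1 u, B.u2 u, B.ρ u, B.ρ (B.u1 u), B.ρ (B.u2 u), B.z1 u, B.z2 u, B.z3 u, B.s]

/-- `A = C_L(s)⟨s⟩`. -/
def A : Subgroup G := closure {c | c ∈ B.EA u}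

/-- `u` gives the standard frame. -/
structure Fr : Prop where
  ea : PJ.EA (B.E u)
  V0_eq : B.V0 = closure {c | c ∈ B.E0 u}
  V_eq : B.V = closure {c | c ∈ B.E u}
  Z_eq : B.Z = closure {c | c ∈ [B.z1 u, B.z2 u, B.z3 u]}
  ax : Acts B.x (B.E u) Ax
  as : Acts B.s (B.E u) As
  ay : Acts B.y (B.E u) Ay
  ar0 : Acts (B.ρ u) (B.E u) Ar0
  ar1 : Acts (B.ρ (B.u1 u)) (B.E u) Ar1
  ar2 : Acts (B.ρ (B.u2 u)) (B.E u) Ar2

end Base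

end Cfsg.Agent.PJ
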