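import Cfsg.Agent.PJ.Base
import Cfsg.Prelude.Def_JankoFourType
import Cfsg.Prelude.Def_CaseTheorems
import Cfsg.Prelude.Def_Transfer
import Cfsg.Agent.PLocal.CoprimeQuot
import Cfsg.Agent.Grp.PFrattini

/-!
# S3321: extraction of the data `Base` 
`θ = e ∘ mk'` on `K`, kernel `L.subgroupOf K`.  `L` is special: `cen` from `hZdef`, `comm`, `gen` from
`commutator L = center L` (map along `L.subtype`; `Subgroup.map_commutator`), `sq` from
`frattini L = center L` (squares of a finite 2-group lie in the Frattini subgroup: `ca find frattini`),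
`sqZ` from `hZe`.
*Coprime lifting* `(*)`: let `g ∈ K` have odd prime order `p` and `k ∈ K` with `θ k`, `θ g`
commuting.  Then `∃ l ∈ L`, `l k` commutes with `g`: `⟨g⟩` and `⟨k g k⁻¹⟩` are Sylow `p`-subgroups
of `L ⊔ ⟨g⟩` (order `2^15 p`, or `|L| p`), so `l k g (l k)⁻¹ = g^i` for some `l' g^j` in it (drop
`g^j` by conjugating back), and `θ g = θ g ^ i` forces `g^i g⁻¹ ∈ L ⊓ ⟨g⟩ = 1`.
*Lifting orders*: if `θ k` has odd prime order `p` then `k^(2^15 m)` with `2^15 m ≡ 1 (mod p)` has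
the same image and order `p` (`k^p ∈ L`, `pow_card_eq_one'`).
Take `y0 ∈ L32` of order 7 (explicit matrix `!![0,0,1;1,0,1;0,1,0]`, `decide`), `y` a lift of
`(1,y0)` of order 7.  By `(*)` a preimage `k` of `(px,1)` can be taken to commute with `y`, and then a
power of it has order 3, so `hxy` gives `cy`.  Hence `θ` is injective on `C_K(y)`; by `(*)` every
`(a,1)` has a unique preimage `σ a` in `C_K(y)`; `σ` is a homomorphism by uniqueness and injective,
so `orderOf (σ a) = orderOf a` and `hxy` gives `cx`.  `lift` is `(*)` with `g = σ px`.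
-/

set_option autoImplicit false

namespace Cfsg.Agent.PJ

open Subgroup Cfsg.Agent.PLocal
open scoped commutatorElement

/-- An element of order 7 of `L₃(2)`. -/
def y7 : L32 := ⟨!![0, 0, 1; 1, 0, 1; 0, 1, 0], by decide⟩

theorem y7_pow : y7 ^ 7 = 1 ∧ y7 ≠ 1 := by decide +kernel

theorem exists_base {G : Type*} [Group G] [Finite G] (K L Z : Subgroup G)
    (hLdef : L = (Cfsg.pCore 2 ↥K).map K.subtype)
    (hZdef : Z = (Subgroup.center ↥L).map L.subtype) (hLs : Cfsg.IsSpecial 2 ↥L)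
    (hLc : Nat.card ↥L = 2 ^ 15) (hZe : Cfsg.IsElementaryAbelian 2 Z) (hZc : Nat.card ↥Z = 8)
    (hK : K = Subgroup.normalizer (Z : Set G))
    (hq : ∃ _ : (L.subgroupOf K).Normal, Nonempty (↥K ⧸ L.subgroupOf K ≃*
      Equiv.Perm (Fin 5) × Matrix.SpecialLinearGroup (Fin 3) (ZMod 2)))
    (hxy : ∀ x y : G, x ∈ K → y ∈ K → orderOf x = 3 → orderOf y = 7 → x * y = y * x →
      L ⊓ Subgroup.centralizer ({x} : Set G) = Z ∧ L ⊓ Subgroup.centralizer ({y} : Set G) = ⊥) :
    Nonempty (Base G) := by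
  have f2 : Fact (Nat.Prime 2) := ⟨Nat.prime_two⟩
  have f3 : Fact (Nat.Prime 3) := ⟨Nat.prime_three⟩
  have f7 : Fact (Nat.Prime 7) := ⟨by norm_num⟩
  obtain ⟨hn, ⟨e⟩⟩ := hq
  have LK : L ≤ K := hLdef ▸ map_subtype_le _
  have ZL : Z ≤ L := hZdef ▸ map_subtype_le _
  let θ : K →* S5 × L32 := e.toMonoidHom.comp (QuotientGroup.mk' _)
  have sj : Function.Surjective θ := e.surjective.comp (QuotientGroup.mk'_surjective _)
  have ker : ∀ k : K, θ k = 1 ↔ (k : G) ∈ L := fun k => by
    show e (k : K ⧸ L.subgroupOf K) = 1 ↔ _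
    rw [map_eq_one_iff _ e.injective, QuotientGroup.eq_one_iff, mem_subgroupOf]
  have ck : Nat.card θ.ker = 2 ^ 15 := by
    rw [show θ.ker = L.subgroupOf K from Subgroup.ext fun k => ker k,
      Nat.card_congr (subgroupOfEquivOfLe LK).toEquiv, hLc]
  have c3 : (Nat.card θ.ker).Coprime 3 := by rw [ck]; norm_num
  have c7 : (Nat.card θ.ker).Coprime 7 := by rw [ck]; norm_num
  have mZ : ∀ l : L, (l : G) ∈ Z ↔ l ∈ center L := fun l => by
    rw [hZdef]
    exact ⟨fun ⟨z, hz, q⟩ => Subtype.ext q ▸ hz, fun h => ⟨l, h, rfl⟩⟩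
  obtain ⟨y, -, hy, y7'⟩ := exists_lift_of_pow_eq_one (p := 7) (k := 1) θ ⊤ c7
    (y := (1, y7)) (by obtain ⟨k, hk⟩ := sj (1, y7); exact ⟨k, mem_top k, hk⟩)
    (by rw [pow_one, Prod.pow_mk, one_pow, y7_pow.1]; rfl)
  have oy : orderOf (y : G) = 7 := by
    rw [orderOf_coe]
    refine orderOf_eq_prime y7' fun q => y7_pow.2 ?_
    rw [q, map_one] at hy
    exact (congrArg Prod.snd hy).symm
  have mC : ∀ a : S5, (a, 1) ∈ (centralizer {y}).map θ := fun a => by
    rw [map_centralizer_singleton_of_pow_eq_one θ sj y7' c7, hy, mem_centralizer_singleton_iff]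
    simp
  have p3 : px ^ 3 = 1 ∧ px ≠ 1 := by decide +kernel
  obtain ⟨x, hx, hx', x3⟩ := exists_lift_of_pow_eq_one (p := 3) (k := 1) θ _ c3 (mC px)
    (by rw [pow_one, Prod.pow_mk, one_pow, p3.1]; rfl)
  have ox : orderOf (x : G) = 3 := by
    rw [orderOf_coe]
    refine orderOf_eq_prime x3 fun q => p3.2 ?_
    rw [q, map_one] at hx'
    exact (congrArg Prod.fst hx').symm
  have cy : ∀ l ∈ L, (y : G) * l = l * y → l = 1 := fun l hl q => by
    have := (hxy x y x.2 y.2 ox oy
      (congrArg Subtype.val (mem_centralizer_singleton_iff.1 hx))).2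
    exact mem_bot.1 (this ▸ ⟨hl, mem_centralizer_singleton_iff.2 q.symm⟩)
  let f : centralizer {y} →* S5 × L32 := θ.comp (Subgroup.subtype _)
  have fi : Function.Injective f := (injective_iff_map_eq_one f).2 fun c hc =>
    Subtype.ext (Subtype.ext (cy _ ((ker _).1 hc)
      (congrArg Subtype.val (mem_centralizer_singleton_iff.1 c.2)).symm))
  let σ0 : S5 →* centralizer {y} := (MonoidHom.ofInjective fi).symm.toMonoidHom.comp
    ((MonoidHom.inl S5 L32).codRestrict f.range fun a => by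
      obtain ⟨c, hc, q⟩ := mC a
      exact ⟨⟨c, hc⟩, q⟩)
  have fσ : ∀ a, θ (σ0 a) = (a, 1) := fun a => MonoidHom.apply_ofInjective_symm fi _
  let σ : S5 →* G := K.subtype.comp ((Subgroup.subtype _).comp σ0)
  have σi : Function.Injective σ := (injective_iff_map_eq_one σ).2 fun a ha => by
    have q : (σ0 a : K) = 1 := Subtype.ext ha
    have := fσ a
    rw [q, map_one] at this
    exact (congrArg Prod.fst this).symm
  have σy : ∀ a, σ a * y = y * σ a := fun a =>
    congrArg Subtype.val (mem_centralizer_singleton_iff.1 (σ0 a).2)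
  refine ⟨{
    K := K, L := L, Z := Z, θ := θ, σ := σ, y := y, surj := sj, ker := ker, K_eq := hK,
    card_L := hLc, card_Z := hZc, L_le := LK, Z_le := ZL
    cen := fun l hl => ?_, comm := fun l hl m hm => ?_, sq := fun l hl => ?_,
    sqZ := fun z hz => by rw [← sq, hZe.2 z hz], gen := ?_,
    σ_mem := fun a => (σ0 a : K).2, θσ := fσ, y_mem := y.2, θy := congrArg Prod.fst hy,
    y_pow := congrArg Subtype.val y7', σy := σy, cx := fun a ha l hl => ?_, cy := cy,
    lift := fun k hk => ?_ }⟩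
  · rw [mZ ⟨l, hl⟩, mem_center_iff]
    exact ⟨fun h m hm => congrArg Subtype.val (h ⟨m, hm⟩), fun h m => Subtype.ext (h m m.2)⟩
  · exact (mZ ⁅(⟨l, hl⟩ : L), ⟨m, hm⟩⁆).2
      (hLs.2.2 ▸ commutator_mem_commutator (mem_top _) (mem_top _))
  · have := Grp.PFrattini.pow_mem_frattini hLs.1 ⟨l, hl⟩
    rw [hLs.2.1, ← mZ, sq] at this
    exact this
  · rw [hZdef, ← hLs.2.2, _root_.commutator_def, map_commutator, ← MonoidHom.range_eq_map,
      range_subtype]
  · have := (hxy (σ a) y (σ0 a : K).2 y.2 ((orderOf_injective σ σi a).trans ha) oy (σy a)).1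
    rw [← this]
    exact ⟨fun h => ⟨hl, mem_centralizer_singleton_iff.2 h.symm⟩,
      fun h => (mem_centralizer_singleton_iff.1 h.2).symm⟩
  · have g3 : (σ0 px : K) ^ 3 ^ 1 = 1 := by
      rw [pow_one, ← coe_pow, ← map_pow, p3.1, map_one, coe_one]
    have : θ k ∈ (centralizer {(σ0 px : K)}).map θ := by
      rw [map_centralizer_singleton_of_pow_eq_one θ sj g3 c3, fσ, mem_centralizer_singleton_iff]
      exact Prod.ext (by simp [hk]) (by simp)
    obtain ⟨c, hc, q⟩ := this
    refine ⟨_, (ker (c * k⁻¹)).1 (by rw [map_mul, q, map_inv, mul_inv_cancel]), ?_⟩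
    rw [coe_mul, coe_inv, inv_mul_cancel_right]
    exact congrArg Subtype.val (mem_centralizer_singleton_iff.1 hc)

end Cfsg.Agent.PJ
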