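import Mathlib

/-!
# Binary words in commuting involutions
-/

set_option autoImplicit false

namespace Cfsg.Agent.PJ

open Subgroup

/-- The xor of the entries of the list selected by the bits of `b`. -/
def lin : List ℕ → ℕ → ℕ
  | [], _ => 0
  | c :: l, b => (if b % 2 = 1 then c else 0) ^^^ lin l (b / 2)

theorem xor_mod_two (a b : ℕ) : (a ^^^ b) % 2 = 1 ↔ ¬ (a % 2 = 1 ↔ b % 2 = 1) := by
  rw [Nat.xor_mod_two_eq_one]

theorem lin_xor (l : List ℕ) (a b : ℕ) : lin l (a ^^^ b) = lin l a ^^^ lin l b := by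
  induction l generalizing a b with
  | nil => simp [lin]
  | cons c l ih =>
    simp only [lin, Nat.xor_div_two, ih, xor_mod_two]
    by_cases ha : a % 2 = 1 <;> by_cases hb : b % 2 = 1 <;>
      simp [ha, hb, Nat.xor_assoc, Nat.xor_left_comm]

theorem lin_zero (l : List ℕ) : lin l 0 = 0 := by
  induction l with
  | nil => rfl
  | cons c l ih => simp [lin, ih]

theorem lin_lt {l : List ℕ} {n : ℕ} (h : ∀ c ∈ l, c < 2 ^ n) (b : ℕ) : lin l b < 2 ^ n := by
  induction l generalizing b with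
  | nil => exact Nat.two_pow_pos n
  | cons c l ih =>
    refine Nat.xor_lt_two_pow ?_ (ih (fun d hd => h d (List.mem_cons_of_mem _ hd)) _)
    split_ifs
    exacts [h c List.mem_cons_self, Nat.two_pow_pos n]

/-- An additive map commutes with `lin`. -/
theorem map_lin {n : ℕ} {φ : ℕ → ℕ} (h0 : φ 0 = 0)
    (h : ∀ a < 2 ^ n, ∀ b < 2 ^ n, φ (a ^^^ b) = φ a ^^^ φ b) {l : List ℕ} (hl : ∀ c ∈ l, c < 2 ^ n)
    (b : ℕ) : φ (lin l b) = lin (l.map φ) b := by
  induction l generalizing b with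
  | nil => exact h0
  | cons c l ih =>
    have h1 := fun d hd => hl d (List.mem_cons_of_mem c hd)
    rw [List.map_cons, lin, lin, ← ih h1]
    split_ifs
    · exact h _ (hl c List.mem_cons_self) _ (lin_lt h1 _)
    · simp

variable {G : Type*} [Group G]

/-- The product of the entries of the list selected by the bits of `b`. -/
def bw : List G → ℕ → G
  | [], _ => 1
  | c :: l, b => (if b % 2 = 1 then c else 1) * bw l (b / 2)

/-- Commuting elements of order at most 2. -/
def EA (E : List G) : Prop := ∀ c ∈ E, c * c = 1 ∧ ∀ d ∈ E, c * d = d * c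

/-- Conjugation by `k` acts on the list `E` by the matrix with columns `A`. -/
def Acts (k : G) (E : List G) (A : List ℕ) : Prop := E.map (fun c => k * c * k⁻¹) = A.map (bw E)

theorem EA.tail {c : G} {l : List G} (h : EA (c :: l)) : EA l := fun d hd =>
  ⟨(h d (List.mem_cons_of_mem _ hd)).1, fun e he =>
    (h d (List.mem_cons_of_mem _ hd)).2 e (List.mem_cons_of_mem _ he)⟩

theorem bw_mem {E : List G} {H : Subgroup G} (h : ∀ c ∈ E, c ∈ H) (b : ℕ) : bw E b ∈ H := by
  induction E generalizing b with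
  | nil => exact one_mem _
  | cons c l ih =>
    refine mul_mem ?_ (ih (fun d hd => h d (List.mem_cons_of_mem _ hd)) _)
    split_ifs
    exacts [h c List.mem_cons_self, one_mem _]

theorem bw_zero (E : List G) : bw E 0 = 1 := by
  induction E with
  | nil => rfl
  | cons c l ih => simp [bw, ih]

theorem bw_comm {E : List G} {g : G} (h : ∀ c ∈ E, g * c = c * g) (b : ℕ) :
    g * bw E b = bw E b * g :=
  mem_centralizer_singleton_iff.1 (bw_mem (H := centralizer {g})
    (fun c hc => mem_centralizer_singleton_iff.2 (h c hc).symm) b) |>.symm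

theorem bw_xor {E : List G} (h : EA E) (a b : ℕ) : bw E (a ^^^ b) = bw E a * bw E b := by
  induction E generalizing a b with
  | nil => simp [bw]
  | cons c l ih =>
    have h1 := (h c List.mem_cons_self).1
    have h2 := bw_comm (E := l) fun d hd => (h c List.mem_cons_self).2 d (List.mem_cons_of_mem _ hd)
    simp only [bw, Nat.xor_div_two, ih h.tail, xor_mod_two]
    by_cases ha : a % 2 = 1 <;> by_cases hb : b % 2 = 1 <;>
      simp only [ha, hb, iff_self, not_true, if_false, if_true, one_mul, iff_false, false_iff,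
        not_false_iff, mul_assoc]
    · rw [← mul_assoc (bw l _) c, ← h2, mul_assoc, ← mul_assoc c c, h1, one_mul]
    · rw [← mul_assoc (bw l _) c, ← h2, mul_assoc]

theorem bw_lin {E : List G} (h : EA E) (A : List ℕ) (b : ℕ) :
    bw (A.map (bw E)) b = bw E (lin A b) := by
  induction A generalizing b with
  | nil => exact (bw_zero E).symm
  | cons c l ih =>
    rw [List.map_cons, bw, lin, bw_xor h, ih]
    split_ifs
    · rfl
    · rw [bw_zero]

theorem map_bw {H : Type*} [Group H] (φ : G →* H) (E : List G) (b : ℕ) :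
    φ (bw E b) = bw (E.map φ) b := by
  induction E generalizing b with
  | nil => exact map_one φ
  | cons c l ih =>
    rw [List.map_cons, bw, bw, map_mul, ih]
    split_ifs
    · rfl
    · rw [map_one]

theorem conj_bw (k : G) (E : List G) (b : ℕ) :
    k * bw E b * k⁻¹ = bw (E.map fun c => k * c * k⁻¹) b :=
  map_bw (MulAut.conj k).toMonoidHom E b

theorem Acts.conj {k : G} {E : List G} {A : List ℕ} (h : Acts k E A) (hE : EA E) (b : ℕ) :
    k * bw E b * k⁻¹ = bw E (lin A b) := by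
  rw [conj_bw, h, bw_lin hE]

theorem bw_mod (E : List G) (b : ℕ) : bw E (b % 2 ^ E.length) = bw E b := by
  induction E generalizing b with
  | nil => rfl
  | cons c l ih =>
    rw [bw, bw, List.length_cons, Nat.mod_mod_of_dvd _ (Dvd.intro_left _ (pow_succ 2 _).symm),
      pow_succ', Nat.mod_mul_right_div_self, ih]

theorem exists_bw_of_mem {E : List G} {c : G} (hc : c ∈ E) : ∃ b, bw E b = c := by
  induction E with
  | nil => exact absurd hc List.not_mem_nil
  | cons d l ih =>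
    rcases List.mem_cons.1 hc with rfl | hc
    · exact ⟨1, by simp [bw, bw_zero]⟩
    · obtain ⟨b, hb⟩ := ih hc
      exact ⟨2 * b, by simp [bw, hb]⟩

theorem mem_closure_iff {E : List G} (h : EA E) {g : G} :
    g ∈ closure {c | c ∈ E} ↔ ∃ b < 2 ^ E.length, bw E b = g := by
  refine ⟨fun hg => ?_, fun ⟨b, _, e⟩ => e ▸ bw_mem (fun c hc => subset_closure hc) b⟩
  have : ∃ b, bw E b = g := by
    induction hg using closure_induction with
    | mem c hc => exact exists_bw_of_mem hc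
    | one => exact ⟨0, bw_zero E⟩
    | mul a b _ _ ha hb =>
      obtain ⟨a, rfl⟩ := ha
      obtain ⟨b, rfl⟩ := hb
      exact ⟨a ^^^ b, bw_xor h a b⟩
    | inv a _ ha =>
      obtain ⟨a, rfl⟩ := ha
      exact ⟨a, eq_inv_of_mul_eq_one_left (by rw [← bw_xor h, Nat.xor_self, bw_zero])⟩
  obtain ⟨b, rfl⟩ := this
  exact ⟨_, Nat.mod_lt _ (Nat.two_pow_pos _), bw_mod E b⟩

/-- Coordinates `f : range n → A`: injective iff the order is `n`. -/
theorem inj_of_card {A : Subgroup G} {n : ℕ} {f : ℕ → G} (h : ∀ g, g ∈ A ↔ ∃ a < n, f a = g)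
    (hc : Nat.card A = n) : ∀ a < n, ∀ b < n, f a = f b → a = b := by
  have hs : Function.Surjective fun a : Fin n => (⟨f a, (h _).2 ⟨a, a.2, rfl⟩⟩ : A) := fun g => by
    obtain ⟨a, ha, e⟩ := (h g).1 g.2
    exact ⟨⟨a, ha⟩, Subtype.ext e⟩
  have : Finite A := Finite.of_surjective _ hs
  have hb := hs.bijective_of_nat_card_le (by rw [hc, Nat.card_fin])
  intro a ha b hb' e
  exact congrArg Fin.val (hb.1 (a₁ := ⟨a, ha⟩) (a₂ := ⟨b, hb'⟩) (Subtype.ext e))

theorem card_of_inj {A : Subgroup G} {n : ℕ} {f : ℕ → G} (h : ∀ g, g ∈ A ↔ ∃ a < n, f a = g)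
    (hi : ∀ a < n, ∀ b < n, f a = f b → a = b) : Nat.card A = n := by
  rw [← Nat.card_congr (Equiv.ofBijective
    (fun a : Fin n => (⟨f a, (h _).2 ⟨a, a.2, rfl⟩⟩ : A)) ⟨fun a b e =>
      Fin.ext (hi a a.2 b b.2 (congrArg Subtype.val e)), fun g => by
        obtain ⟨a, ha, e⟩ := (h g).1 g.2
        exact ⟨⟨a, ha⟩, Subtype.ext e⟩⟩), Nat.card_fin]

/-- Regularity: if `m` normalises `A`, preserves the predicate `O` and maps `f v` to `f w`, then
`v` and `w` are sums of two elements of `O` in equally many ways. -/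
theorem reg_eq {A : Subgroup G} {n : ℕ} {f : ℕ → G} (h : ∀ g, g ∈ A ↔ ∃ a < 2 ^ n, f a = g)
    (hi : ∀ a < 2 ^ n, ∀ b < 2 ^ n, f a = f b → a = b)
    (hm : ∀ a < 2 ^ n, ∀ b < 2 ^ n, f (a ^^^ b) = f a * f b) {m : G}
    (hN : m ∈ normalizer (A : Set G)) (O : ℕ → Prop) [DecidablePred O]
    (hO : ∀ a < 2 ^ n, ∀ b < 2 ^ n, m * f a * m⁻¹ = f b → (O a ↔ O b)) {v w : ℕ} (hv : v < 2 ^ n)
    (hw : w < 2 ^ n) (e : m * f v * m⁻¹ = f w) :
    ((Finset.range (2 ^ n)).filter fun c => O c ∧ O (v ^^^ c)).card =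
      ((Finset.range (2 ^ n)).filter fun c => O c ∧ O (w ^^^ c)).card := by
  have ex : ∀ a, ∃ b, a < 2 ^ n → b < 2 ^ n ∧ m * f a * m⁻¹ = f b := fun a => by
    by_cases ha : a < 2 ^ n
    · obtain ⟨b, hb, e⟩ := (h _).1 ((mem_normalizer_iff.1 hN _).1 ((h _).2 ⟨a, ha, rfl⟩))
      exact ⟨b, fun _ => ⟨hb, e.symm⟩⟩
    · exact ⟨0, fun l => absurd l ha⟩
  choose ψ hψ using ex
  have key : ∀ c < 2 ^ n, (O c ∧ O (v ^^^ c) ↔ O (ψ c) ∧ O (w ^^^ ψ c)) := fun c hc =>
    and_congr (hO c hc _ (hψ c hc).1 (hψ c hc).2) (hO _ (Nat.xor_lt_two_pow hv hc) _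
      (Nat.xor_lt_two_pow hw (hψ c hc).1) (by
        rw [hm v hv c hc, hm w hw _ (hψ c hc).1, ← e, ← (hψ c hc).2]; group))
  refine Finset.card_bij (fun c _ => ψ c) (fun c hc => ?_) (fun a ha b hb l => ?_) fun b hb => ?_
  · rw [Finset.mem_filter, Finset.mem_range] at hc ⊢
    exact ⟨(hψ c hc.1).1, (key c hc.1).1 hc.2⟩
  · rw [Finset.mem_filter, Finset.mem_range] at ha hb
    refine hi a ha.1 b hb.1 ?_
    have := (hψ a ha.1).2
    rw [show ψ a = ψ b from l, ← (hψ b hb.1).2] at this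
    simpa using this
  · rw [Finset.mem_filter, Finset.mem_range] at hb
    obtain ⟨a, ha, l⟩ := (h _).1 ((mem_normalizer_iff''.1 hN _).1 ((h _).2 ⟨b, hb.1, rfl⟩))
    have : ψ a = b := hi _ (hψ a ha).1 b hb.1 (by rw [← (hψ a ha).2, l]; group)
    exact ⟨a, Finset.mem_filter.2 ⟨Finset.mem_range.2 ha, (key a ha).2 (this ▸ hb.2)⟩, this⟩

end Cfsg.Agent.PJ
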