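import Cfsg.Agent.PJ.Defs

/-!
# S3321: an automorphism of the even cocode preserving the duads comes from `M24`
`du p q = ccrd (2^p ^^^ 2^q)`.  Finite facts (`decide +kernel`): `a ∈ dum ↔ ∃ p ≠ q < 24, a = du p q`;
`du` is injective on unordered pairs; `du p q ^^^ du p r = du q r` (`ccrd_xor`); for four distinct
points `du p q ^^^ du r s ∉ dum` (either 276² table look-ups in a table of the `du p q`, or
`ccrd_eq_zero` and the minimum weight 8).
Star argument: the 23 duads `φ (du 0 q)`, `1 ≤ q < 24`, are distinct and the sum of two of them is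
the duad `φ (du q r)`, so they are pairwise intersecting 2-sets; four or more of these have a common
point `σ 0`; `φ (du 0 q) = du (σ 0) (σ q)`, `σ` is injective on `0..23`, so it is (the index form of) a
permutation `τ` of `GolayPt` (`pt`, `ix`; `Finite.injective_iff_bijective`).  For an even mask `m`,
`ccrd m` is the xor of the `du 0 q`, `q ∈ m` (induction; `du 0 0 = 0`), so
`φ (ccrd m) = ccrd (imgC (code τ) m)`.  For a code word `m` this is `0`, so the image is a code word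
(`ccrd_eq_zero`, `pop_red_of_isCW`), and `τ ∈ M24` (`GolayM24`: membership via `codeSets`, or `okM`,
`pc_mem`).  Finally `a = ccrd (cvec a)` (`cvec_spec`, `Md.act_def`).
-/

set_option autoImplicit false

namespace Cfsg.Agent.PJ

open Cfsg Cfsg.Agent.Comp Cfsg.Agent.Spor Cfsg.Agent.Spor.M24C Cfsg.Agent.R24 Subgroup
open scoped Pointwise

/-- `ccrd (2 ^ p)` -/
noncomputable def duW (p : ℕ) : ℕ := dig 12 2047 0x40020010008004002001000800400200163a31d7b43da1ed6cc3661b36e354b49f475 p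

theorem duW_lt (p : ℕ) : duW p < 2048 := lt_of_le_of_lt Nat.and_le_right (by norm_num)

theorem duW_xlt (p q : ℕ) : duW p ^^^ duW q < 2048 := xor_lt (duW_lt p) (duW_lt q)

theorem duW_eq {p : ℕ} (hp : p < 24) : ccrd (2 ^ p) = duW p :=
  beq_iff _ _ |>.1 ((allLT_iff _ _).1
    (show allLT 24 (fun p => Nat.beq (ccrd (2 ^ p)) (duW p)) = true by decide +kernel) p hp)

theorem du_mem {p q : ℕ} (hp : p < 24) (hq : q < 24) (h : p ≠ q) :
    dum.testBit (duW p ^^^ duW q) = true := by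
  have := (allLT_iff _ _).1 ((allLT_iff _ _).1 (show allLT 24 (fun p => allLT 24 fun q =>
    or' (Nat.beq p q) (tb dum (Nat.xor (duW p) (duW q)))) = true by decide +kernel) p hp) q hq
  simp only [or'_eq_true, beq_iff, tb_eq] at this
  exact this.resolve_left h

theorem du_ex {a : ℕ} (ha : a < 2048) (h : dum.testBit a = true) :
    ∃ p < 24, ∃ q < 24, p ≠ q ∧ a = duW p ^^^ duW q := by
  have := (allB_iff _ _).1 (show allB 2048 (fun a => or' (not' (tb dum a)) (anyLT 24 fun p =>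
    force (Nat.xor a (duW p)) fun b => anyLT 24 fun q =>
      and' (Nat.beq b (duW q)) (not' (Nat.beq p q)))) = true by decide +kernel) a ha
  simp only [or'_eq_true, not'_eq_true, tb_eq, h, not_true, false_or, anyLT_iff, force_eq,
    and'_eq_true, beq_iff] at this
  obtain ⟨p, hp, q, hq, e, n⟩ := this
  refine ⟨p, hp, q, hq, n, ?_⟩
  rw [← e]
  show a = duW p ^^^ (a ^^^ duW p)
  rw [Nat.xor_comm a, ← Nat.xor_assoc, Nat.xor_self, Nat.zero_xor]

theorem du_meet_aux : allLT 24 (fun p => force p fun p => allLT 24 fun q => force q fun q =>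
    or' (Nat.beq p q) (force (Nat.xor (duW p) (duW q)) fun a => allLT 24 fun r => force r fun r =>
      or' (or' (Nat.beq p r) (Nat.beq q r)) (force (Nat.xor a (duW r)) fun b =>
        allLT 24 fun s => force s fun s => or' (not' (tb dum (Nat.xor b (duW s))))
          (or' (Nat.beq r s) (or' (Nat.beq p s) (Nat.beq q s)))))) = true := by decide +kernel

theorem du_meet {p q r s : ℕ} (hp : p < 24) (hq : q < 24) (hr : r < 24) (hs : s < 24) (h : p ≠ q)
    (h' : r ≠ s) (e : dum.testBit ((duW p ^^^ duW q) ^^^ (duW r ^^^ duW s)) = true) :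
    p = r ∨ q = r ∨ p = s ∨ q = s := by
  have := du_meet_aux
  simp only [allLT_iff, force_eq, or'_eq_true, not'_eq_true, beq_iff, tb_eq] at this
  rw [← Nat.xor_assoc] at e
  rcases (this p hp q hq).resolve_left h r hr with (l | l) | l
  · exact Or.inl l
  · exact Or.inr (Or.inl l)
  · exact Or.inr (Or.inr (((l s hs).resolve_left fun n => n e).resolve_left h'))

theorem du_inj {p q : ℕ} (hp : p < 24) (hq : q < 24) (e : duW p ^^^ duW q = 0) : p = q :=
  by_contra fun n => by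
    have := du_mem hp hq n
    rw [e] at this
    exact absurd this (by decide +kernel)

theorem du_x (a b c : ℕ) : (a ^^^ b) ^^^ (a ^^^ c) = b ^^^ c := by
  rw [Nat.xor_comm a b, Nat.xor_assoc, ← Nat.xor_assoc a, Nat.xor_self, Nat.zero_xor]

theorem du_ne {k : ℕ} (hk : k < 24) : (duW 0 ^^^ duW k) ^^^ (duW 1 ^^^ duW 2) ≠ 0 := by
  have := (allLT_iff _ _).1 (show allLT 24 (fun k => not' (Nat.beq
    (Nat.xor (Nat.xor (duW 0) (duW k)) (Nat.xor (duW 1) (duW 2))) 0)) = true by decide +kernel) k hk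
  rwa [not'_eq_true, beq_iff] at this

theorem du_star (φ : ℕ → ℕ) (hlt : ∀ a < 2048, φ a < 2048)
    (hx : ∀ a < 2048, ∀ b < 2048, φ (a ^^^ b) = φ a ^^^ φ b) (hi : ∀ a < 2048, φ a = 0 → a = 0)
    (hd : ∀ a < 2048, dum.testBit a = true → dum.testBit (φ a) = true) :
    ∃ p < 24, ∀ k < 24, ∃ r < 24, φ (duW 0 ^^^ duW k) = duW p ^^^ duW r := by
  have h0 : φ 0 = 0 := by
    have := hx 0 (by norm_num) 0 (by norm_num)
    rwa [Nat.xor_self, Nat.xor_self] at this
  have ex : ∀ k < 24, k ≠ 0 → ∃ p < 24, ∃ q < 24, p ≠ q ∧ φ (duW 0 ^^^ duW k) = duW p ^^^ duW q :=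
    fun k hk n => du_ex (hlt _ (duW_xlt _ _)) (hd _ (duW_xlt _ _) (du_mem (by norm_num) hk n.symm))
  have sm : ∀ k < 24, ∀ l < 24, k ≠ l →
      dum.testBit (φ (duW 0 ^^^ duW k) ^^^ φ (duW 0 ^^^ duW l)) = true := fun k hk l hl n => by
    rw [← hx _ (duW_xlt _ _) _ (duW_xlt _ _), du_x]
    exact hd _ (duW_xlt _ _) (du_mem hk hl n)
  obtain ⟨p, hp, q, hq, r, hr, n1, n2, e1, e2⟩ : ∃ p < 24, ∃ q < 24, ∃ r < 24, p ≠ q ∧ p ≠ r ∧
      φ (duW 0 ^^^ duW 1) = duW p ^^^ duW q ∧ φ (duW 0 ^^^ duW 2) = duW p ^^^ duW r := by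
    obtain ⟨p, hp, q, hq, n1, e1⟩ := ex 1 (by norm_num) (by norm_num)
    obtain ⟨r, hr, s, hs, n2, e2⟩ := ex 2 (by norm_num) (by norm_num)
    have := sm 1 (by norm_num) 2 (by norm_num) (by norm_num)
    rw [e1, e2] at this
    rcases du_meet hp hq hr hs n1 n2 this with rfl | rfl | rfl | rfl
    · exact ⟨p, hp, q, hq, s, hs, n1, n2, e1, e2⟩
    · exact ⟨q, hq, p, hp, s, hs, n1.symm, n2, e1.trans (Nat.xor_comm _ _), e2⟩
    · exact ⟨p, hp, q, hq, r, hr, n1, n2.symm, e1, e2.trans (Nat.xor_comm _ _)⟩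
    · exact ⟨q, hq, p, hp, r, hr, n1.symm, n2.symm, e1.trans (Nat.xor_comm _ _),
        e2.trans (Nat.xor_comm _ _)⟩
  refine ⟨p, hp, fun k hk => ?_⟩
  by_cases k0 : k = 0
  · exact ⟨p, hp, by rw [k0, Nat.xor_self, Nat.xor_self, h0]⟩
  by_cases k1 : k = 1
  · exact ⟨q, hq, k1 ▸ e1⟩
  by_cases k2 : k = 2
  · exact ⟨r, hr, k2 ▸ e2⟩
  obtain ⟨s, hs, t, ht, n3, e3⟩ := ex k hk k0
  by_cases ps : p = s
  · exact ⟨t, ht, ps ▸ e3⟩
  by_cases pt' : p = t
  · exact ⟨s, hs, pt' ▸ e3.trans (Nat.xor_comm _ _)⟩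
  exfalso
  have m1 := sm 1 (by norm_num) k hk (Ne.symm k1)
  have m2 := sm 2 (by norm_num) k hk (Ne.symm k2)
  have m3 := sm 1 (by norm_num) 2 (by norm_num) (by norm_num)
  rw [e1, e3] at m1
  rw [e2, e3] at m2
  have qr : q ≠ r := fun e => by
    rw [e1, e2, e, Nat.xor_self] at m3
    exact absurd m3 (by decide +kernel)
  have e4 : φ (duW 1 ^^^ duW 2) = duW q ^^^ duW r := by
    rw [← du_x (duW 0), hx _ (duW_xlt _ _) _ (duW_xlt _ _), e1, e2, du_x]
  refine du_ne hk (hi _ (xor_lt (duW_xlt _ _) (duW_xlt _ _)) ?_)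
  rw [hx _ (duW_xlt _ _) _ (duW_xlt _ _), e3, e4, xor_eq_zero']
  have c1 := du_meet hp hq hs ht n1 n3 m1
  have c2 := du_meet hp hr hs ht n2 n3 m2
  have : (q = s ∧ r = t) ∨ (q = t ∧ r = s) := by omega
  rcases this with ⟨rfl, rfl⟩ | ⟨rfl, rfl⟩
  exacts [rfl, Nat.xor_comm _ _]

theorem du_insert {x : GolayPt} {s : Finset GolayPt} (h : x ∉ s) :
    ccrd (maskOf (insert x s)) = duW (ix x) ^^^ ccrd (maskOf s) := by
  have e : insert x s = symmDiff {x} s := by
    ext y
    simp only [Finset.mem_insert, Finset.mem_symmDiff, Finset.mem_singleton]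
    by_cases e : y = x <;> simp [e, h]
  rw [e, maskOf_symmDiff, ccrd_xor, ← setOf'_two_pow,
    maskOf_setOf' (Nat.pow_lt_pow_right (by norm_num) (ix_lt x)), duW_eq (ix_lt x)]

theorem du_par (a n : ℕ) :
    (if (n + 1) % 2 = 0 then 0 else a) = a ^^^ (if n % 2 = 0 then 0 else a) := by
  rcases Nat.mod_two_eq_zero_or_one n with h | h
  · rw [if_neg (by omega), if_pos h, Nat.xor_zero]
  · rw [if_pos (by omega), if_neg (by omega), Nat.xor_self]

theorem duad (φ : ℕ → ℕ) (hlt : ∀ a < 2048, φ a < 2048)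
    (hx : ∀ a < 2048, ∀ b < 2048, φ (a ^^^ b) = φ a ^^^ φ b) (hi : ∀ a < 2048, φ a = 0 → a = 0)
    (hd : ∀ a < 2048, dum.testBit a = true → dum.testBit (φ a) = true) :
    ∃ g : M24, ∀ a < 2048, φ a = co.act (cd g) a := by
  have h0 : φ 0 = 0 := by
    have := hx 0 (by norm_num) 0 (by norm_num)
    rwa [Nat.xor_self, Nat.xor_self] at this
  obtain ⟨p, hp, h⟩ := du_star φ hlt hx hi hd
  choose! σ hσ e using h
  have inj : Function.Injective fun x : GolayPt => pt (σ (ix x)) := fun x y l => by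
    have l := pt_inj (hσ _ (ix_lt x)) (hσ _ (ix_lt y)) l
    refine ix_injective (du_inj (ix_lt x) (ix_lt y) (hi _ (duW_xlt _ _) ?_))
    rw [← du_x (duW 0), hx _ (duW_xlt _ _) _ (duW_xlt _ _), e _ (ix_lt x), e _ (ix_lt y), l,
      Nat.xor_self]
  let τ : Equiv.Perm GolayPt := Equiv.ofBijective _ (Finite.injective_iff_bijective.1 inj)
  have hτ : ∀ x, ix (τ x) = σ (ix x) := fun x => ix_pt (hσ _ (ix_lt x))
  have key : ∀ s : Finset GolayPt, φ (ccrd (maskOf s) ^^^ if s.card % 2 = 0 then 0 else duW 0) =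
      ccrd (maskOf (τ • s)) ^^^ if s.card % 2 = 0 then 0 else duW p := by
    intro s
    induction s using Finset.induction_on with
    | empty =>
      have : ccrd (maskOf ∅) = 0 := by
        rw [← setOf'_zero, maskOf_setOf' (by norm_num)]; decide +kernel
      simp [this, h0]
    | insert x s hx' ih =>
      have l : (ccrd (maskOf s) ^^^ if s.card % 2 = 0 then 0 else duW 0) < 2048 :=
        xor_lt (ccrd_lt _) (by split_ifs; exacts [by norm_num, duW_lt 0])
      have a : ∀ a b c d : ℕ, (a ^^^ b) ^^^ (c ^^^ d) = (c ^^^ a) ^^^ (b ^^^ d) := fun a b c d => by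
        simp only [Nat.xor_assoc, Nat.xor_left_comm]
      rw [Finset.smul_finset_insert, du_insert hx', du_insert (fun c => hx' (Finset.smul_mem_smul_finset_iff _ |>.1 c)),
        Finset.card_insert_of_notMem hx', du_par, du_par, a, hx _ (duW_xlt _ _) _ l, ih, e _ (ix_lt x),
        a (duW (ix (τ • x))), Equiv.Perm.smul_def, hτ]
  have key' : ∀ s : Finset GolayPt, s.card % 2 = 0 → φ (ccrd (maskOf s)) = ccrd (maskOf (τ • s)) :=
    fun s hs => by simpa [hs] using key s
  have hM : τ ∈ M24 := mem_M24_iff.2 fun s hs => by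
    rw [mem_codeSets_iff] at hs ⊢
    have ev := (pop_red_of_isCW hs).1
    have := key' s (by rwa [card_eq_pop])
    rw [(ccrd_eq_zero (maskOf_lt _) ev).2 hs, h0] at this
    exact (ccrd_eq_zero (maskOf_lt _) (by rwa [← card_eq_pop, Finset.card_smul_finset, card_eq_pop])).1
      this.symm
  refine ⟨⟨τ, hM⟩, fun a ha => ?_⟩
  obtain ⟨c1, c2, c3⟩ := cvec_spec ha
  have := key' (setOf' (cvec a)) (by rwa [card_setOf'])
  rw [maskOf_setOf' c1, c3, maskOf_smul_setOf'] at this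
  rw [this, Md.act_def]
  rfl

end Cfsg.Agent.PJ
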