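import Mathlib

/-!
# S3321: the frame, abstract linear algebra in characteristic 2
-/

set_option autoImplicit false

namespace Cfsg.Agent.PJ

theorem fr_c2 {A : Type*} [AddCommGroup A] [Module (ZMod 2) A] {a b : A}
    (h : (1 : ZMod 2) • a = (1 : ZMod 2) • b) : a = b := by simpa using h

/-- `V0` with the action of `x, s, y`. -/
structure FrA (A : Type*) [AddCommGroup A] where
  /-- `Z` -/
  Z : AddSubgroup A
  /-- `x` -/
  X : A →+ A
  /-- `s` -/
  S : A →+ A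
  /-- `y` -/
  Y : A →+ A
  XZ : ∀ z ∈ Z, X z = z
  X3 : ∀ a, X (X (X a)) = a
  S2 : ∀ a, S (S a) = a
  SX : ∀ a, S (X a) = X (X (S a))
  YX : ∀ a, Y (X a) = X (Y a)
  YS : ∀ a, Y (S a) = S (Y a)
  Y7 : ∀ a, Y^[7] a = a
  Yfix : ∀ a, Y a = a → a = 0
  nZ : ∀ a, a + X a + X (X a) ∈ Z

namespace FrA

variable {A : Type*} [AddCommGroup A] [Module (ZMod 2) A] (F : FrA A)

/-- `W0` -/
def W : AddSubgroup A where
  carrier := {w | w + F.X w + F.X (F.X w) = 0 ∧ F.S w = w}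
  zero_mem' := by simp
  add_mem' := fun {a b} ha hb => ⟨by
    simp only [map_add]; linear_combination (norm := (apply fr_c2; match_scalars <;> decide)) ha.1 + hb.1, by rw [map_add, ha.2, hb.2]⟩
  neg_mem' := fun {a} ha => ⟨by
    simp only [map_neg]; linear_combination (norm := (apply fr_c2; match_scalars <;> decide)) ha.1, by rw [map_neg, ha.2]⟩

theorem mem_W {w : A} : w ∈ F.W ↔ w + F.X w + F.X (F.X w) = 0 ∧ F.S w = w := Iff.rfl

theorem Y_mem_W {w : A} (h : w ∈ F.W) : F.Y w ∈ F.W :=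
  ⟨by rw [← F.YX, ← F.YX, ← map_add, ← map_add, h.1, map_zero], by rw [← F.YS, h.2]⟩

theorem t_mem {v : A} (h : v + F.X v + F.X (F.X v) = 0) : v + F.S v ∈ F.W := by
  refine ⟨?_, by rw [map_add, F.S2, add_comm]⟩
  have e := congrArg F.S h
  simp only [map_add, F.SX, F.X3, map_zero] at e ⊢
  linear_combination (norm := (apply fr_c2; match_scalars <;> decide)) h + e

theorem decomp (v : A) : ∃ z ∈ F.Z, ∃ w ∈ F.W, ∃ w' ∈ F.W, v = z + w + F.X w' := by
  have hn := F.nZ v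
  have e := F.XZ _ hn
  have h1 : (v + (v + F.X v + F.X (F.X v))) + F.X (v + (v + F.X v + F.X (F.X v))) +
      F.X (F.X (v + (v + F.X v + F.X (F.X v)))) = 0 := by
    simp only [map_add, F.X3]; (apply fr_c2; match_scalars <;> decide)
  generalize hv1 : v + (v + F.X v + F.X (F.X v)) = v1 at h1
  have h2 : F.X (F.X v1) + F.X (F.X (F.X v1)) + F.X (F.X (F.X (F.X v1))) = 0 := by
    simp only [F.X3]; linear_combination (norm := (apply fr_c2; match_scalars <;> decide)) h1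
  refine ⟨_, hn, _, F.t_mem h2, _, F.t_mem h1, ?_⟩
  simp only [map_add, F.SX, F.X3]
  linear_combination (norm := (apply fr_c2; match_scalars <;> decide)) h1 + hv1

theorem card_W [Finite A] (hA : Nat.card A = 512) (hZ : Nat.card F.Z = 8) : Nat.card F.W = 8 := by
  let φ : F.Z × F.W × F.W →+ A := AddMonoidHom.mk' (fun p => p.1.1 + p.2.1.1 + F.X p.2.2.1) (by
    intro p q
    simp only [Prod.fst_add, Prod.snd_add, AddSubgroup.coe_add, map_add]; abel)
  have hb : Function.Bijective φ := by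
    constructor
    · rw [injective_iff_map_eq_zero]
      rintro ⟨⟨z, hz⟩, ⟨w, hw⟩, ⟨w', hw'⟩⟩ h
      have h : z + w + F.X w' = 0 := h
      have e1 := congrArg F.X h
      have e2 := congrArg F.X e1
      simp only [map_add, F.XZ z hz, F.X3, map_zero] at e1 e2
      have hz0 : z = 0 := by linear_combination (norm := (apply fr_c2; match_scalars <;> decide)) h + e1 + e2 + hw.1 + hw'.1
      have hww : w = F.X w' := by linear_combination (norm := (apply fr_c2; match_scalars <;> decide)) h + hz0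
      have e3 := hw.2
      rw [hww, F.SX, hw'.2] at e3
      have hw0 : w' = 0 := by linear_combination (norm := (apply fr_c2; match_scalars <;> decide)) hw'.1 + e3
      have hw1 : w = 0 := by rw [hww, hw0, map_zero]
      subst hz0 hw1 hw0
      rfl
    · intro v
      obtain ⟨z, hz, w, hw, w', hw', e⟩ := F.decomp v
      exact ⟨⟨⟨z, hz⟩, ⟨w, hw⟩, ⟨w', hw'⟩⟩, e.symm⟩
  have hc := Nat.card_eq_of_bijective φ hb
  rw [Nat.card_prod, Nat.card_prod, hA, hZ] at hc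
  have : Nat.card F.W * Nat.card F.W = 8 * 8 := by omega
  exact Nat.mul_self_inj.1 this

theorem Y_inj : Function.Injective F.Y := fun a b h => by
  rw [← F.Y7 a, ← F.Y7 b, Function.iterate_succ_apply, Function.iterate_succ_apply F.Y 6 b, h]

theorem it_ne {u : A} (hu : u ≠ 0) {i j : ℕ} (hij : i < j) (hj : j < 7) :
    F.Y^[i] u ≠ F.Y^[j] u := by
  intro h
  obtain ⟨k, rfl⟩ := Nat.exists_eq_add_of_lt hij
  rw [add_assoc, Function.iterate_add_apply] at h
  have h1 : Function.IsPeriodicPt F.Y (k + 1) u := (F.Y_inj.iterate i h).symm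
  have h2 : Function.IsPeriodicPt F.Y 7 u := F.Y7 u
  have h3 := h1.gcd h2
  have : Nat.gcd (k + 1) 7 = 1 := by
    have : k < 6 := by omega
    interval_cases k <;> rfl
  rw [this] at h3
  exact hu (F.Yfix u h3)

theorem it_mem {u : A} (hu : u ∈ F.W) (i : ℕ) : F.Y^[i] u ∈ F.W := by
  induction i with
  | zero => exact hu
  | succ i ih => rw [Function.iterate_succ_apply']; exact F.Y_mem_W ih

theorem orbit [Finite A] (hW : Nat.card F.W = 8) {u : A} (hu : u ∈ F.W) (h0 : u ≠ 0) {w : A}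
    (hw : w ∈ F.W) : w = 0 ∨ ∃ i < 7, w = F.Y^[i] u := by
  let f : Option (Fin 7) → F.W := fun o => match o with
    | none => 0
    | some i => ⟨F.Y^[i] u, F.it_mem hu i⟩
  have hne : ∀ i : ℕ, F.Y^[i] u ≠ 0 := fun i h =>
    h0 (F.Y_inj.iterate i (h.trans (iterate_map_zero F.Y i).symm))
  have hi : Function.Injective f := by
    rintro (_ | i) (_ | j) h
    · rfl
    · exact absurd (congrArg Subtype.val h).symm (hne j)
    · exact absurd (congrArg Subtype.val h) (hne i)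
    · have h : F.Y^[i] u = F.Y^[j] u := congrArg Subtype.val h
      rcases lt_trichotomy i j with l | l | l
      · exact absurd h (F.it_ne h0 l j.2)
      · rw [l]
      · exact absurd h.symm (F.it_ne h0 l i.2)
  have hb := hi.bijective_of_nat_card_le (by rw [hW]; simp)
  obtain ⟨_ | i, e⟩ := hb.2 ⟨w, hw⟩
  · exact Or.inl (congrArg Subtype.val e).symm
  · exact Or.inr ⟨i, i.2, (congrArg Subtype.val e).symm⟩

theorem exists_ne [Finite A] (hW : Nat.card F.W = 8) : ∃ u ∈ F.W, u ≠ 0 := by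
  have : Nontrivial F.W := Finite.one_lt_card_iff_nontrivial.1 (by omega)
  obtain ⟨u, hu⟩ := _root_.exists_ne (0 : F.W)
  exact ⟨u, u.2, fun h => hu (Subtype.ext h)⟩

theorem cases_u [Finite A] (hW : Nat.card F.W = 8) {u : A} (hu : u ∈ F.W) (h0 : u ≠ 0) :
    F.Y (F.Y (F.Y u)) = u + F.Y u ∨ F.Y (F.Y (F.Y (F.Y (F.Y u)))) = u + F.Y u := by
  have h7 : F.Y (F.Y (F.Y (F.Y (F.Y (F.Y (F.Y u)))))) = u := F.Y7 u
  have n2 : F.Y (F.Y u) ≠ u + F.Y u := fun h => by
    apply F.it_ne h0 (i := 0) (j := 3) (by omega) (by omega)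
    have e := congrArg F.Y h
    rw [map_add] at e
    show u = F.Y (F.Y (F.Y u))
    linear_combination (norm := (apply fr_c2; match_scalars <;> decide)) h + e
  rcases F.orbit hW hu h0 (add_mem hu (F.Y_mem_W hu)) with h | ⟨i, hi, h⟩
  · exact absurd (F.Yfix u (by linear_combination (norm := (apply fr_c2; match_scalars <;> decide)) h)) h0
  · interval_cases i
    · have h : u + F.Y u = u := h
      exact absurd (F.Y_inj (show F.Y u = F.Y 0 by rw [map_zero]; linear_combination (norm := (apply fr_c2; match_scalars <;> decide)) h)) h0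
    · have h : u + F.Y u = F.Y u := h
      exact absurd (by linear_combination (norm := (apply fr_c2; match_scalars <;> decide)) h) h0
    · exact absurd h.symm n2
    · exact Or.inl h.symm
    · have h : u + F.Y u = F.Y (F.Y (F.Y (F.Y u))) := h
      exfalso
      apply n2
      have e1 := congrArg F.Y h
      have e4 := congrArg F.Y (congrArg F.Y (congrArg F.Y e1))
      simp only [map_add] at e1 e4
      rw [h7] at e4
      linear_combination (norm := (apply fr_c2; match_scalars <;> decide)) h + e1 + e4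
    · exact Or.inr h.symm
    · have h : u + F.Y u = F.Y (F.Y (F.Y (F.Y (F.Y (F.Y u))))) := h
      exfalso
      apply n2
      have e1 := congrArg F.Y h
      rw [h7, map_add] at e1
      linear_combination (norm := (apply fr_c2; match_scalars <;> decide)) e1

theorem W_le [Finite A] (hW : Nat.card F.W = 8) {u : A} (hu : u ∈ F.W) (h0 : u ≠ 0)
    (h3 : F.Y (F.Y (F.Y u)) = u + F.Y u) {H : AddSubgroup A} (a0 : u ∈ H) (a1 : F.Y u ∈ H)
    (a2 : F.Y (F.Y u) ∈ H) : F.W ≤ H := by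
  have key : ∀ i, F.Y^[i] u ∈ H ∧ F.Y^[i] (F.Y u) ∈ H ∧ F.Y^[i] (F.Y (F.Y u)) ∈ H := by
    intro i
    induction i with
    | zero => exact ⟨a0, a1, a2⟩
    | succ i ih =>
      refine ⟨ih.2.1, ih.2.2, ?_⟩
      rw [Function.iterate_succ_apply, h3, iterate_map_add]
      exact add_mem ih.1 ih.2.1
  intro w hw
  rcases F.orbit hW hu h0 hw with rfl | ⟨i, -, rfl⟩
  exacts [zero_mem _, (key i).1]

theorem span6 [Finite A] (hW : Nat.card F.W = 8) {u : A} (hu : u ∈ F.W) (h0 : u ≠ 0)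
    (h3 : F.Y (F.Y (F.Y u)) = u + F.Y u) {H : AddSubgroup A} (a0 : u ∈ H) (a1 : F.Y u ∈ H)
    (a2 : F.Y (F.Y u) ∈ H) (b0 : F.X u ∈ H) (b1 : F.X (F.Y u) ∈ H) (b2 : F.X (F.Y (F.Y u)) ∈ H)
    (v : A) : ∃ z ∈ F.Z, v + z ∈ H := by
  obtain ⟨z, hz, w, hw, w', hw', e⟩ := F.decomp v
  refine ⟨z, hz, ?_⟩
  have : v + z = w + F.X w' := by linear_combination (norm := (apply fr_c2; match_scalars <;> decide)) e
  rw [this]
  exact add_mem (F.W_le hW hu h0 h3 a0 a1 a2 hw)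
    (F.W_le hW hu h0 h3 (H := H.comap F.X) b0 b1 b2 hw')

end FrA

/-- With the commutator map `β` and the map `g`. -/
structure FrB (A : Type*) [AddCommGroup A] extends FrA A where
  /-- `⁅ρ a, b⁆` -/
  β : A →+ A →+ A
  /-- `⁅ρ a, p0⁆ a` -/
  g : A → A
  βz : ∀ a, ∀ z ∈ Z, β a z = 0
  βsym : ∀ a b, β a b = β b a
  βX : ∀ a b, β (X a) b = β a (X b)
  βS : ∀ a b, β (S a) (S b) = β a b
  βY : ∀ a b, β (Y a) (Y b) = Y (β a b)
  βaa : ∀ a, β a a = 0
  βXX : ∀ a, β a (X (X a)) = 0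
  gZ : ∀ a, g a ∈ Z
  gadd : ∀ a b, g (a + b) = g a + g b + β a b
  gS : ∀ a, g (S a) = g a
  gY : ∀ a, g (Y a) = Y (g a)
  gen : ∀ H : AddSubgroup A, (∀ a b, β a b ∈ H) → Z ≤ H

namespace FrB

variable {A : Type*} [AddCommGroup A] [Module (ZMod 2) A] (F : FrB A)

theorem XX {w : A} (hw : w ∈ F.W) : F.X (F.X w) = w + F.X w := by linear_combination (norm := (apply fr_c2; match_scalars <;> decide)) hw.1

theorem SXw {w : A} (hw : w ∈ F.W) : F.S (F.X w) = w + F.X w := by rw [F.SX, hw.2, F.XX hw]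

theorem β_aX (a : A) : F.β a (F.X a) = 0 := by
  have e := F.βz a _ (F.nZ a)
  rw [map_add, map_add, F.βaa, F.βXX] at e
  linear_combination (norm := (apply fr_c2; match_scalars <;> decide)) e

theorem β_WW {w w' : A} (hw : w ∈ F.W) (hw' : w' ∈ F.W) : F.β w w' = 0 := by
  have e := F.βS (F.X w) w'
  rw [F.SXw hw, hw'.2, map_add, AddMonoidHom.add_apply] at e
  linear_combination (norm := (apply fr_c2; match_scalars <;> decide)) e

theorem β_symX (w w' : A) : F.β w (F.X w') = F.β w' (F.X w) := by rw [← F.βX, F.βsym]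

theorem β_XX {w w' : A} (hw : w ∈ F.W) (hw' : w' ∈ F.W) :
    F.β (F.X w) (F.X w') = F.β w (F.X w') := by
  rw [F.βX, F.XX hw', map_add, F.β_WW hw hw', zero_add]

theorem g_W {w : A} (hw : w ∈ F.W) : F.g w = 0 := by
  have e := F.gS (F.X w)
  rw [F.SXw hw, F.gadd, F.β_aX] at e
  linear_combination (norm := (apply fr_c2; match_scalars <;> decide)) e

section
variable {u : A} (hu : u ∈ F.W) (h3 : F.Y (F.Y (F.Y u)) = u + F.Y u)
include hu h3

theorem Y_z1 : F.Y (F.β (F.Y u) (F.X (F.Y (F.Y u)))) =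
    F.β (F.Y u) (F.X (F.Y (F.Y u))) + F.β u (F.X (F.Y (F.Y u))) := by
  rw [← F.βY, F.YX, h3, map_add, map_add, F.β_symX _ u, F.β_symX _ (F.Y u), add_comm]

theorem Y_z2 : F.Y (F.β u (F.X (F.Y (F.Y u)))) = F.β u (F.X (F.Y u)) := by
  rw [← F.βY, F.YX, h3, map_add, map_add, F.β_symX _ u, F.β_aX, add_zero]

omit hu h3 in
theorem Y_z3 : F.Y (F.β u (F.X (F.Y u))) = F.β (F.Y u) (F.X (F.Y (F.Y u))) := by
  rw [← F.βY, F.YX]

omit h3 in
theorem Z_le (h4 : ∀ H : AddSubgroup A, u ∈ H → F.Y u ∈ H → F.Y (F.Y u) ∈ H → F.X u ∈ H →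
      F.X (F.Y u) ∈ H → F.X (F.Y (F.Y u)) ∈ H → ∀ v, ∃ z ∈ F.Z, v + z ∈ H)
    {H : AddSubgroup A} (a1 : F.β (F.Y u) (F.X (F.Y (F.Y u))) ∈ H)
    (a2 : F.β u (F.X (F.Y (F.Y u))) ∈ H) (a3 : F.β u (F.X (F.Y u)) ∈ H) : F.Z ≤ H := by
  have hu1 := F.Y_mem_W hu
  have hu2 := F.Y_mem_W hu1
  have red : ∀ a, F.β a u ∈ H → F.β a (F.Y u) ∈ H → F.β a (F.Y (F.Y u)) ∈ H → F.β a (F.X u) ∈ H →
      F.β a (F.X (F.Y u)) ∈ H → F.β a (F.X (F.Y (F.Y u))) ∈ H → ∀ b, F.β a b ∈ H := by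
    intro a c1 c2 c3 c4 c5 c6 b
    obtain ⟨z, hz, e⟩ := h4 (H.comap (F.β a)) c1 c2 c3 c4 c5 c6 b
    rw [AddSubgroup.mem_comap, map_add, F.βz a z hz, add_zero] at e
    exact e
  have k : ∀ w ∈ F.W, F.β w (F.X u) ∈ H → F.β w (F.X (F.Y u)) ∈ H →
      F.β w (F.X (F.Y (F.Y u))) ∈ H → (∀ b, F.β b w ∈ H) ∧ ∀ b, F.β b (F.X w) ∈ H := by
    intro w hw c1 c2 c3
    refine ⟨fun b => ?_, fun b => ?_⟩
    · rw [F.βsym]
      refine red w ?_ ?_ ?_ c1 c2 c3 b
      · rw [F.β_WW hw hu]; exact zero_mem _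
      · rw [F.β_WW hw hu1]; exact zero_mem _
      · rw [F.β_WW hw hu2]; exact zero_mem _
    · rw [F.βsym]
      refine red _ ?_ ?_ ?_ ?_ ?_ ?_ b
      · rwa [F.βX]
      · rwa [F.βX]
      · rwa [F.βX]
      · rwa [F.β_XX hw hu]
      · rwa [F.β_XX hw hu1]
      · rwa [F.β_XX hw hu2]
  have z0 : ∀ a, F.β a (F.X a) ∈ H := fun a => by rw [F.β_aX]; exact zero_mem _
  have k0 := k u hu (z0 _) a3 a2
  have k1 := k _ hu1 (by rwa [F.β_symX]) (z0 _) a1
  have k2 := k _ hu2 (by rwa [F.β_symX]) (by rwa [F.β_symX]) (z0 _)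
  exact F.gen H fun a b =>
    red a (k0.1 a) (k1.1 a) (k2.1 a) (k0.2 a) (k1.2 a) (k2.2 a) b

theorem g_X (h4 : ∀ H : AddSubgroup A, u ∈ H → F.Y u ∈ H → F.Y (F.Y u) ∈ H → F.X u ∈ H →
      F.X (F.Y u) ∈ H → F.X (F.Y (F.Y u)) ∈ H → ∀ v, ∃ z ∈ F.Z, v + z ∈ H) :
    F.g (F.X u) = F.β (F.Y u) (F.X (F.Y (F.Y u))) := by
  have e1 := F.Y_z1 hu h3
  have e2 := F.Y_z2 hu h3
  have e3 := F.Y_z3 (u := u)
  let H : AddSubgroup A := (F.Y.comp (F.Y.comp F.Y) + F.Y.comp F.Y + AddMonoidHom.id A).ker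
  have mH : ∀ a, a ∈ H ↔ F.Y (F.Y (F.Y a)) + F.Y (F.Y a) + a = 0 := fun a => Iff.rfl
  have hZ : F.Z ≤ H := by
    refine F.Z_le hu h4 ?_ ?_ ?_ <;> rw [mH] <;> simp only [e1, e2, e3, map_add] <;> (apply fr_c2; match_scalars <;> decide)
  have a1 := (mH _).1 (hZ (F.gZ (F.X u)))
  have a2 := F.gadd (F.X u) (F.X (F.Y u))
  rw [← map_add, ← h3, ← F.YX, ← F.YX, ← F.YX, F.gY, F.gY, F.gY, F.YX,
    F.β_XX hu (F.Y_mem_W hu)] at a2
  have a3 : F.Y (F.Y (F.g (F.X u) + F.β (F.Y u) (F.X (F.Y (F.Y u))))) =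
      F.Y (F.g (F.X u) + F.β (F.Y u) (F.X (F.Y (F.Y u)))) := by
    simp only [map_add, e1, e2, e3]
    linear_combination (norm := (apply fr_c2; match_scalars <;> decide)) a1 + a2
  have a4 := F.Yfix _ (F.Y_inj a3)
  linear_combination (norm := (apply fr_c2; match_scalars <;> decide)) a4

end

end FrB

end Cfsg.Agent.PJ
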