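import Cfsg.Agent.PJ.Mod1
import Cfsg.Agent.PJ.FrmA

/-!
# S3321: the frame, the additive model of `V0`
-/

set_option autoImplicit false

namespace Cfsg.Agent.PJ.Base

open Subgroup
open scoped commutatorElement

variable {G : Type*} [Group G] [Finite G] (B : Base G)

theorem fr_V0_L {v : G} (hv : v ∈ B.V0) : v ∈ B.L := hv.1

theorem fr_σ_conj {a : S5} (ha : a 4 = 4) {v : G} (hv : v ∈ B.V0) :
    B.σ a * v * (B.σ a)⁻¹ ∈ B.V0 :=
  (mem_normalizer_iff.1 (B.norm_V0 ⟨B.σ a, B.σ_mem a⟩ (by rw [B.θσ]; exact ha)) v).1 hv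

theorem fr_x_conj {v : G} (hv : v ∈ B.V0) : B.x * v * B.x⁻¹ ∈ B.V0 :=
  B.fr_σ_conj (by decide) hv

theorem fr_s_conj {v : G} (hv : v ∈ B.V0) : B.s * v * B.s⁻¹ ∈ B.V0 :=
  B.fr_σ_conj (by decide) hv

theorem fr_y_conj {v : G} (hv : v ∈ B.V0) : B.y * v * B.y⁻¹ ∈ B.V0 :=
  (mem_normalizer_iff.1 (B.norm_V0 ⟨B.y, B.y_mem⟩ (by rw [B.θy]; rfl)) v).1 hv

omit [Finite G] in
theorem fr_rel : B.x * B.p0 * B.x⁻¹ = B.p1 ∧ B.x * B.p1 * B.x⁻¹ = B.p0 * B.p1 ∧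
    B.s * B.x * B.s⁻¹ = B.x⁻¹ ∧ B.r * B.x * B.r⁻¹ = B.x⁻¹ ∧ B.s * B.r = B.r * B.s ∧
    B.s * B.p0 = B.p0 * B.s ∧ B.s * B.p1 * B.s⁻¹ = B.p0 * B.p1 ∧ B.p0 * B.p1 = B.p1 * B.p0 ∧
    B.s * B.s = 1 ∧ B.r * B.r = 1 ∧ B.p0 * B.p0 = 1 ∧ B.p1 * B.p1 = 1 ∧ B.x * B.x * B.x = 1 := by
  obtain ⟨h1, h2, h3, h4, h5, h6, h7, -, h9, h10, h11, h12, h13, h14⟩ := perm_rel
  simp only [x, s, r, p0, p1, ← map_mul, ← map_inv, h1, h2, h3, h4, h5, h6, h7, h9, h10, h11, h12,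
    h13, h14, map_one, and_self]

omit [Finite G] in
theorem fr_ρ_L {v : G} (hv : v ∈ B.L) : B.ρ v ∈ B.L := B.conj_L (B.σ_mem pr) hv

omit [Finite G] in
theorem fr_Z_comm {l z : G} (hl : l ∈ B.L) (hz : z ∈ B.Z) : l * z = z * l :=
  (B.cen z (B.Z_le hz)).1 hz l hl

theorem fr_σ_fix (a : S5) {z : G} (hz : z ∈ B.Z) : B.σ a * z * (B.σ a)⁻¹ = z := by
  rw [B.σ_Z a hz, mul_inv_cancel_right]

/-- `V0`, additively. -/
def FV : Type _ := Additive B.V0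

instance frFV_grp : AddCommGroup B.FV :=
  { (inferInstance : AddGroup (Additive B.V0)) with
    add_comm := fun a b => Subtype.ext (B.V0_comm (Additive.toMul a).2 (Additive.toMul b).2) }

/-- The inclusion. -/
def frι (a : B.FV) : G := (Additive.toMul (show Additive B.V0 from a)).1

/-- The constructor. -/
def frMk (v : G) (h : v ∈ B.V0) : B.FV := Additive.ofMul (⟨v, h⟩ : B.V0)

theorem frι_mk (v : G) (h : v ∈ B.V0) : B.frι (B.frMk v h) = v := rfl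
theorem frι_mem (a : B.FV) : B.frι a ∈ B.V0 := (Additive.toMul (show Additive B.V0 from a)).2
theorem frι_L (a : B.FV) : B.frι a ∈ B.L := (B.frι_mem a).1
theorem frι_add (a b : B.FV) : B.frι (a + b) = B.frι a * B.frι b := rfl
theorem frι_zero : B.frι 0 = 1 := rfl
theorem frι_neg (a : B.FV) : B.frι (-a) = (B.frι a)⁻¹ := rfl
theorem frι_inj : Function.Injective B.frι := fun _ _ h => Subtype.ext h

instance frFV_mod : Module (ZMod 2) B.FV :=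
  AddCommGroup.zmodModule (n := 2) fun a => by
    rw [two_nsmul]; exact B.frι_inj (B.V0_sq (B.frι_mem a))

instance frFV_fin : Finite B.FV := inferInstanceAs (Finite (Additive B.V0))

theorem frFV_card : Nat.card B.FV = 512 := B.card_V0

/-- Conjugation. -/
def frC (k : G) (hk : ∀ v ∈ B.V0, k * v * k⁻¹ ∈ B.V0) : B.FV →+ B.FV :=
  AddMonoidHom.mk' (fun a => B.frMk (k * B.frι a * k⁻¹) (hk _ (B.frι_mem a))) fun a b =>
    B.frι_inj (by simp only [frι_add, frι_mk]; group)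

/-- Pull back a subgroup. -/
def frP (H : Subgroup G) : AddSubgroup B.FV where
  carrier := {a | B.frι a ∈ H}
  zero_mem' := one_mem H
  add_mem' := fun {a b} ha hb => show B.frι a * B.frι b ∈ H from mul_mem ha hb
  neg_mem' := fun {a} ha => show (B.frι a)⁻¹ ∈ H from inv_mem ha

/-- Push forward a subgroup. -/
def frQ (H : AddSubgroup B.FV) : Subgroup G where
  carrier := B.frι '' H
  one_mem' := ⟨0, zero_mem H, rfl⟩
  mul_mem' := by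
    rintro _ _ ⟨a, ha, rfl⟩ ⟨b, hb, rfl⟩
    exact ⟨a + b, add_mem ha hb, rfl⟩
  inv_mem' := by
    rintro _ ⟨a, ha, rfl⟩
    exact ⟨-a, neg_mem ha, rfl⟩

theorem frQ_mem {H : AddSubgroup B.FV} {a : B.FV} : B.frι a ∈ B.frQ H ↔ a ∈ H :=
  ⟨fun ⟨_, hb, e⟩ => B.frι_inj e ▸ hb, fun h => ⟨a, h, rfl⟩⟩

theorem frP_card : Nat.card (B.frP B.Z) = 8 := by
  rw [← B.card_Z]
  refine Nat.card_eq_of_bijective (fun a => ⟨B.frι a.1, a.2⟩) ⟨fun a b h => ?_, fun z => ?_⟩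
  · exact Subtype.ext (B.frι_inj (congrArg (fun t : B.Z => (t : G)) h))
  · exact ⟨⟨B.frMk z.1 (B.Z_le_V0 z.2), z.2⟩, rfl⟩

/-- The model of steps 1-3. -/
def frA : FrA B.FV where
  Z := B.frP B.Z
  X := B.frC B.x fun _ => B.fr_x_conj
  S := B.frC B.s fun _ => B.fr_s_conj
  Y := B.frC B.y fun _ => B.fr_y_conj
  XZ := fun _ hz => B.frι_inj (B.fr_σ_fix px hz)
  X3 := fun a => B.frι_inj (by
    show B.x * (B.x * (B.x * B.frι a * B.x⁻¹) * B.x⁻¹) * B.x⁻¹ = B.frι a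
    have : B.x * (B.x * (B.x * B.frι a * B.x⁻¹) * B.x⁻¹) * B.x⁻¹ =
      (B.x * B.x * B.x) * B.frι a * (B.x * B.x * B.x)⁻¹ := by group
    rw [this, B.fr_rel.2.2.2.2.2.2.2.2.2.2.2.2]; group)
  S2 := fun a => B.frι_inj (by
    show B.s * (B.s * B.frι a * B.s⁻¹) * B.s⁻¹ = B.frι a
    have : B.s * (B.s * B.frι a * B.s⁻¹) * B.s⁻¹ = (B.s * B.s) * B.frι a * (B.s * B.s)⁻¹ := by
      group
    rw [this, B.fr_rel.2.2.2.2.2.2.2.2.1]; group)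
  SX := fun a => B.frι_inj (by
    show B.s * (B.x * B.frι a * B.x⁻¹) * B.s⁻¹ =
      B.x * (B.x * (B.s * B.frι a * B.s⁻¹) * B.x⁻¹) * B.x⁻¹
    have e : B.x * B.x = B.s * B.x * B.s⁻¹ := by
      rw [B.fr_rel.2.2.1]; exact eq_inv_of_mul_eq_one_left B.fr_rel.2.2.2.2.2.2.2.2.2.2.2.2
    have : B.x * (B.x * (B.s * B.frι a * B.s⁻¹) * B.x⁻¹) * B.x⁻¹ =
      (B.x * B.x) * (B.s * B.frι a * B.s⁻¹) * (B.x * B.x)⁻¹ := by group
    rw [this, e]; group)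
  YX := fun a => B.frι_inj (by
    show B.y * (B.x * B.frι a * B.x⁻¹) * B.y⁻¹ = B.x * (B.y * B.frι a * B.y⁻¹) * B.x⁻¹
    have e : B.x * B.y = B.y * B.x := B.σy px
    have : B.x * (B.y * B.frι a * B.y⁻¹) * B.x⁻¹ = (B.x * B.y) * B.frι a * (B.x * B.y)⁻¹ := by
      group
    rw [this, e]; group)
  YS := fun a => B.frι_inj (by
    show B.y * (B.s * B.frι a * B.s⁻¹) * B.y⁻¹ = B.s * (B.y * B.frι a * B.y⁻¹) * B.s⁻¹
    have e : B.s * B.y = B.y * B.s := B.σy ps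
    have : B.s * (B.y * B.frι a * B.y⁻¹) * B.s⁻¹ = (B.s * B.y) * B.frι a * (B.s * B.y)⁻¹ := by
      group
    rw [this, e]; group)
  Y7 := fun a => B.frι_inj (by
    show B.y * (B.y * (B.y * (B.y * (B.y * (B.y * (B.y * B.frι a * B.y⁻¹) * B.y⁻¹) * B.y⁻¹) *
      B.y⁻¹) * B.y⁻¹) * B.y⁻¹) * B.y⁻¹ = B.frι a
    have : B.y * (B.y * (B.y * (B.y * (B.y * (B.y * (B.y * B.frι a * B.y⁻¹) * B.y⁻¹) * B.y⁻¹) *
      B.y⁻¹) * B.y⁻¹) * B.y⁻¹) * B.y⁻¹ = B.y ^ 7 * B.frι a * (B.y ^ 7)⁻¹ := by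
      simp only [pow_succ, pow_zero]; group
    rw [this, B.y_pow]; group)
  Yfix := fun a h => B.frι_inj (B.cy _ (B.frι_L a)
    (mul_inv_eq_iff_eq_mul.1 (congrArg B.frι h)))
  nZ := fun a => by
    have h := B.norm3 (orderOf_three perm_rel.2.2.2.2.2.2.2.2.2.2.2.2.2 (by decide)) (B.frι_L a)
    show B.frι a * (B.x * B.frι a * B.x⁻¹) * (B.x * (B.x * B.frι a * B.x⁻¹) * B.x⁻¹) ∈ B.Z
    have e : B.x * B.x = B.x⁻¹ := eq_inv_of_mul_eq_one_left B.fr_rel.2.2.2.2.2.2.2.2.2.2.2.2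
    have : B.x * (B.x * B.frι a * B.x⁻¹) * B.x⁻¹ = (B.x * B.x) * B.frι a * (B.x * B.x)⁻¹ := by
      group
    rw [this, e, inv_inv]
    exact h

theorem frA_X (a : B.FV) : B.frι (B.frA.X a) = B.ξ (B.frι a) := rfl
theorem frA_S (a : B.FV) : B.frι (B.frA.S a) = B.s * B.frι a * B.s⁻¹ := rfl
theorem frA_Y (a : B.FV) : B.frι (B.frA.Y a) = B.y * B.frι a * B.y⁻¹ := rfl

theorem frA_XX (a : B.FV) : B.frι (B.frA.X (B.frA.X a)) = B.x⁻¹ * B.frι a * B.x := by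
  show B.x * (B.x * B.frι a * B.x⁻¹) * B.x⁻¹ = _
  have e : B.x * B.x = B.x⁻¹ := eq_inv_of_mul_eq_one_left B.fr_rel.2.2.2.2.2.2.2.2.2.2.2.2
  have : B.x * (B.x * B.frι a * B.x⁻¹) * B.x⁻¹ = (B.x * B.x) * B.frι a * (B.x * B.x)⁻¹ := by
    group
  rw [this, e, inv_inv]

theorem frA_card : Nat.card B.frA.W = 8 := B.frA.card_W B.frFV_card B.frP_card

theorem frA_mem_W {u : G} (hu : u ∈ B.V0) : B.frMk u hu ∈ B.frA.W ↔
    u * B.ξ u * (B.x⁻¹ * u * B.x) = 1 ∧ B.s * u = u * B.s := by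
  rw [FrA.mem_W, ← B.frι_inj.eq_iff, ← B.frι_inj.eq_iff, frι_add, frι_add, frA_XX, frA_X, frA_S,
    frι_mk, frι_zero, mul_inv_eq_iff_eq_mul]

omit [Finite G] in
theorem fr_cl {l m n : G} (hl : l ∈ B.L) (hm : m ∈ B.L) (hn : n ∈ B.L) :
    ⁅l * m, n⁆ = ⁅l, n⁆ * ⁅m, n⁆ := by
  have e : ⁅l * m, n⁆ = l * ⁅m, n⁆ * l⁻¹ * ⁅l, n⁆ := by
    simp only [commutatorElement_def]; group
  rw [e, B.fr_Z_comm hl (B.comm m hm n hn), mul_inv_cancel_right,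
    B.fr_Z_comm (B.Z_le (B.comm m hm n hn)) (B.comm l hl n hn)]

omit [Finite G] in
theorem fr_cr {l m n : G} (hl : l ∈ B.L) (hm : m ∈ B.L) (hn : n ∈ B.L) :
    ⁅l, m * n⁆ = ⁅l, m⁆ * ⁅l, n⁆ := by
  have e : ⁅l, m * n⁆ = ⁅l, m⁆ * (m * ⁅l, n⁆ * m⁻¹) := by
    simp only [commutatorElement_def]; group
  rw [e, B.fr_Z_comm hm (B.comm l hl n hn), mul_inv_cancel_right]

omit [Finite G] in
theorem fr_ρ_mul (v w : G) : B.ρ (v * w) = B.ρ v * B.ρ w := by simp only [ρ]; group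

omit [Finite G] in
theorem fr_ρρ (v : G) : B.ρ (B.ρ v) = v := by
  have : B.ρ (B.ρ v) = (B.r * B.r) * v * (B.r * B.r)⁻¹ := by simp only [ρ]; group
  rw [this, B.fr_rel.2.2.2.2.2.2.2.2.2.1]; group

omit [Finite G] in
theorem fr_ρ_conj {k k' : G} (h : B.r * k = k' * B.r) (v : G) :
    B.ρ (k * v * k⁻¹) = k' * B.ρ v * k'⁻¹ := by
  have : B.ρ (k * v * k⁻¹) = (B.r * k) * v * (B.r * k)⁻¹ := by simp only [ρ]; group
  rw [this, h]; simp only [ρ]; group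

omit [Finite G] in
theorem fr_ρ_ξ (v : G) : B.ρ (B.ξ v) = B.x⁻¹ * B.ρ v * B.x := by
  have := B.fr_ρ_conj (mul_inv_eq_iff_eq_mul.1 B.fr_rel.2.2.2.1) v
  rwa [inv_inv] at this

omit [Finite G] in
theorem fr_inv_comm {m φ : G} (hm : m * m = 1) (hφ : φ * φ = 1) (h : ⁅m, φ⁆ * ⁅m, φ⁆ = 1) :
    ⁅m, ⁅m, φ⁆⁆ = 1 := by
  have e1 : m⁻¹ = m := inv_eq_of_mul_eq_one_left hm
  have e2 : φ⁻¹ = φ := inv_eq_of_mul_eq_one_left hφ
  have e : m * ⁅m, φ⁆ * m⁻¹ = ⁅m, φ⁆⁻¹ := by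
    rw [commutatorElement_inv, commutatorElement_def, commutatorElement_def, e1, e2]
    calc m * (m * φ * m * φ) * m = (m * m) * φ * m * φ * m := by group
      _ = _ := by rw [hm, one_mul]
  rw [commutatorElement_def m, e, ← mul_inv_rev, h, inv_one]

/-- `β` -/
def frβ : B.FV →+ B.FV →+ B.FV :=
  AddMonoidHom.mk' (fun a => AddMonoidHom.mk' (fun b => B.frMk ⁅B.ρ (B.frι a), B.frι b⁆
      (B.Z_le_V0 (B.comm _ (B.fr_ρ_L (B.frι_L a)) _ (B.frι_L b)))) fun b c =>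
      B.frι_inj (B.fr_cr (B.fr_ρ_L (B.frι_L a)) (B.frι_L b) (B.frι_L c))) fun a b => by
    ext c
    apply B.frι_inj
    show ⁅B.ρ (B.frι a * B.frι b), B.frι c⁆ = ⁅B.ρ (B.frι a), B.frι c⁆ * ⁅B.ρ (B.frι b), B.frι c⁆
    rw [fr_ρ_mul]
    exact B.fr_cl (B.fr_ρ_L (B.frι_L a)) (B.fr_ρ_L (B.frι_L b)) (B.frι_L c)

theorem frβ_ι (a b : B.FV) : B.frι (B.frβ a b) = ⁅B.ρ (B.frι a), B.frι b⁆ := rfl

theorem frβ_Z (a b : B.FV) : ⁅B.ρ (B.frι a), B.frι b⁆ ∈ B.Z :=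
  B.comm _ (B.fr_ρ_L (B.frι_L a)) _ (B.frι_L b)

theorem frβ_z (a : B.FV) {z : B.FV} (hz : B.frι z ∈ B.Z) : B.frβ a z = 0 :=
  B.frι_inj (commutatorElement_eq_one_iff_mul_comm.2 (B.fr_Z_comm (B.fr_ρ_L (B.frι_L a)) hz))

/-- `g` -/
def frg (a : B.FV) : B.FV :=
  B.frMk (⁅B.ρ (B.frι a), B.p0⁆ * B.frι a) (B.Z_le_V0 (B.theta (B.frι_mem a)))

theorem frg_ι (a : B.FV) : B.frι (B.frg a) = ⁅B.ρ (B.frι a), B.p0⁆ * B.frι a := rfl

theorem frg_add (a : B.FV) : B.frι (B.frg a + a) = ⁅B.ρ (B.frι a), B.p0⁆ := by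
  rw [frι_add, frg_ι, mul_assoc, B.V0_sq (B.frι_mem a), mul_one]

theorem fr_ρ_sq (a : B.FV) : B.ρ (B.frι a) * B.ρ (B.frι a) = 1 := by
  rw [← fr_ρ_mul, B.V0_sq (B.frι_mem a)]; simp [ρ]

theorem fr_p1 (a : B.FV) :
    B.frι (B.frA.X (B.frg (B.frA.X a) + B.frA.X a)) = ⁅B.ρ (B.frι a), B.p1⁆ := by
  rw [frA_X, frg_add, frA_X, fr_ρ_ξ, ← B.fr_rel.1]
  simp only [ξ, commutatorElement_def]; group

/-- The model of steps 4-7. -/
def frB : FrB B.FV :=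
  { B.frA with
    β := B.frβ
    g := B.frg
    βz := fun a _ hz => B.frβ_z a hz
    βsym := fun a b => B.frι_inj (by
      rw [frβ_ι, frβ_ι, ← B.fr_σ_fix pr (B.frβ_Z a b), conjugate_commutatorElement]
      show ⁅B.ρ (B.ρ (B.frι a)), B.ρ (B.frι b)⁆ = _
      rw [fr_ρρ, ← commutatorElement_inv]
      exact inv_eq_of_mul_eq_one_left (B.sqZ _ (B.frβ_Z b a)))
    βX := fun a b => B.frι_inj (by
      rw [frβ_ι, frβ_ι, ← B.fr_σ_fix px (B.frβ_Z _ b), conjugate_commutatorElement, frA_X, frA_X,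
        fr_ρ_ξ]
      show ⁅B.x * (B.x⁻¹ * B.ρ (B.frι a) * B.x) * B.x⁻¹, B.ξ (B.frι b)⁆ = _
      congr 1; group)
    βS := fun a b => B.frι_inj (by
      rw [frβ_ι, frβ_ι, ← B.fr_σ_fix ps (B.frβ_Z a b), conjugate_commutatorElement, frA_S, frA_S,
        B.fr_ρ_conj B.fr_rel.2.2.2.2.1.symm]
      rfl)
    βY := fun a b => B.frι_inj (by
      rw [frA_Y, frβ_ι, frβ_ι, conjugate_commutatorElement, frA_Y, frA_Y,
        B.fr_ρ_conj (B.σy pr)])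
    βaa := fun a => by
      have h : B.frβ a (B.frg a + a) = 0 := B.frι_inj (by
        rw [frβ_ι, frg_add]
        refine fr_inv_comm (B.fr_ρ_sq a) B.fr_rel.2.2.2.2.2.2.2.2.2.2.1 ?_
        rw [← frg_add]; exact B.V0_sq (B.frι_mem _))
      rwa [map_add, B.frβ_z a (z := B.frg a) (B.theta (B.frι_mem a)), zero_add] at h
    βXX := fun a => by
      have h : B.frβ a (B.frA.X (B.frg (B.frA.X a) + B.frA.X a)) = 0 := B.frι_inj (by
        rw [frβ_ι, fr_p1]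
        refine fr_inv_comm (B.fr_ρ_sq a) B.fr_rel.2.2.2.2.2.2.2.2.2.2.2.1 ?_
        rw [← fr_p1]; exact B.V0_sq (B.frι_mem _))
      rwa [map_add, map_add, B.frA.XZ _ (B.theta (B.frι_mem (B.frA.X a))),
        B.frβ_z a (z := B.frg (B.frA.X a)) (B.theta (B.frι_mem _)), zero_add] at h
    gZ := fun a => B.theta (B.frι_mem a)
    gadd := fun a b => by
      have h : B.frg (a + b) + (a + b) = B.frβ a (B.frg b + b) + (B.frg b + b) + (B.frg a + a) :=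
        B.frι_inj (by
          rw [frg_add, frι_add, frι_add, frι_add, frβ_ι, frg_add, frg_add, fr_ρ_mul]
          simp only [commutatorElement_def]; group)
      rw [map_add, B.frβ_z a (z := B.frg b) (B.theta (B.frι_mem b)), zero_add] at h
      linear_combination (norm := (apply fr_c2; match_scalars <;> decide)) h
    gS := fun a => B.frι_inj (by
      rw [frg_ι, frg_ι, ← B.fr_σ_fix ps (B.theta (B.frι_mem a)), frA_S,
        B.fr_ρ_conj B.fr_rel.2.2.2.2.1.symm]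
      have e : B.s * B.p0 * B.s⁻¹ = B.p0 := by rw [B.fr_rel.2.2.2.2.2.1, mul_inv_cancel_right]
      conv_lhs => rw [← e]
      show _ = B.s * _ * B.s⁻¹
      simp only [commutatorElement_def]; group)
    gY := fun a => B.frι_inj (by
      rw [frA_Y, frg_ι, frg_ι, frA_Y, B.fr_ρ_conj (B.σy pr)]
      have e : B.y * B.p0 * B.y⁻¹ = B.p0 := by
        rw [show B.y * B.p0 = B.p0 * B.y from (B.σy pf).symm, mul_inv_cancel_right]
      conv_lhs => rw [← e]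
      simp only [commutatorElement_def]; group)
    gen := fun H hH z hz => by
      refine B.frQ_mem.1 (commutator_le.2 (fun l hl m hm => ?_) (B.gen hz))
      obtain ⟨v, hv, v', hv', rfl⟩ := B.dec hl
      obtain ⟨w, hw, w', hw', rfl⟩ := B.dec hm
      have r1 := B.fr_ρ_L hv'.1
      have r2 := B.fr_ρ_L hw'.1
      rw [B.fr_cl hv.1 r1 hm, B.fr_cr hv.1 hw.1 r2, B.fr_cr r1 hw.1 r2,
        commutatorElement_eq_one_iff_mul_comm.2 (B.V0_comm hv hw),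
        commutatorElement_eq_one_iff_mul_comm.2 (show B.ρ v' * B.ρ w' = B.ρ w' * B.ρ v' by
          rw [← fr_ρ_mul, ← fr_ρ_mul, B.V0_comm hv' hw']), one_mul, mul_one,
        ← commutatorElement_inv]
      exact mul_mem (inv_mem (B.frQ_mem.2 (hH (B.frMk w' hw') (B.frMk v hv))))
        (B.frQ_mem.2 (hH (B.frMk v' hv') (B.frMk w hw))) }

end Cfsg.Agent.PJ.Base
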