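import Cfsg.Agent.PJ.Base

/-!
# S3321: the module `L/Z` and the subgroup `V0`
`L/Z` is elementary abelian (`comm`, `sq`); write it additively, `K` acts on it.  It may be
convenient to work in `Q = L ⧸ Z.subgroupOf L` (a `CommGroup` of exponent 2) with the action
`α : K →* MulAut Q`, or with the congruence `a ≡ b :↔ a * b ∈ Z` on `L`.
`c(l,m) = ⁅l,m⁆ ∈ Z` is bimultiplicative on `L` and depends on `l, m` modulo `Z` only (`cen`).
Relations between `px, ps, pr, pf, pg`: `perm_rel`; further ones by `decide +kernel`.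
-/

set_option autoImplicit false

namespace Cfsg.Agent.PJ.M1

open Subgroup
open scoped commutatorElement

variable {G : Type*} [Group G] (B : Base G)

theorem zc {z l : G} (hz : z ∈ B.Z) (hl : l ∈ B.L) : l * z = z * l :=
  (B.cen z (B.Z_le hz)).1 hz l hl

instance nZ : (B.Z.subgroupOf B.L).Normal :=
  ⟨fun a ha g => mem_subgroupOf.2 (B.conj_Z (B.L_le g.2) (mem_subgroupOf.1 ha))⟩

/-- `L/Z`. -/
def Q : Type _ := B.L ⧸ B.Z.subgroupOf B.L

instance cgQ : CommGroup (Q B) :=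
  { (inferInstance : Group (B.L ⧸ B.Z.subgroupOf B.L)) with
    mul_comm := fun a b => by
      obtain ⟨a, rfl⟩ := QuotientGroup.mk_surjective a
      obtain ⟨b, rfl⟩ := QuotientGroup.mk_surjective b
      change ((a * b : B.L) : B.L ⧸ B.Z.subgroupOf B.L) = ((b * a : B.L) : B.L ⧸ B.Z.subgroupOf B.L)
      rw [QuotientGroup.eq, mem_subgroupOf]
      have := B.comm _ (inv_mem b.2) _ (inv_mem a.2)
      have e : (((a * b)⁻¹ * (b * a) : B.L) : G) = ⁅(b : G)⁻¹, (a : G)⁻¹⁆ := by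
        simp only [commutatorElement_def, coe_mul, coe_inv]; group
      rwa [e] }

/-- The projection. -/
def mk : B.L →* Q B := QuotientGroup.mk' (B.Z.subgroupOf B.L)

theorem mk_eq_one (l : B.L) : mk B l = 1 ↔ (l : G) ∈ B.Z :=
  (QuotientGroup.eq_one_iff (N := B.Z.subgroupOf B.L) l).trans mem_subgroupOf

theorem mk_surj : Function.Surjective (mk B) := QuotientGroup.mk_surjective

/-- Conjugation by `σ a` on `L`. -/
def cj (a : S5) : B.L →* B.L :=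
  MonoidHom.mk' (fun l => ⟨B.σ a * l * (B.σ a)⁻¹, B.conj_L (B.σ_mem a) l.2⟩) fun l m =>
    Subtype.ext (by simp only [coe_mul]; group)

/-- The action on `L/Z`. -/
def AQ (a : S5) : Q B →* Q B :=
  QuotientGroup.map (B.Z.subgroupOf B.L) (B.Z.subgroupOf B.L) (cj B a) fun l hl =>
    mem_comap.2 (mem_subgroupOf.2 (B.conj_Z (B.σ_mem a) (mem_subgroupOf.1 hl)))

theorem AQ_mk (a : S5) (l : B.L) : AQ B a (mk B l) = mk B (cj B a l) := rfl

/-- The module. -/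
abbrev M : Type _ := Additive (Q B)

/-- The additive action. -/
def A (a : S5) : M B →+ M B := MonoidHom.toAdditive (AQ B a)

open Classical in
/-- The projection as a function on `G`. -/
noncomputable def π (l : G) : M B := if h : l ∈ B.L then Additive.ofMul (mk B ⟨l, h⟩) else 0

variable {B}

theorem π_of {l : G} (hl : l ∈ B.L) : π B l = Additive.ofMul (mk B ⟨l, hl⟩) := dif_pos hl

theorem π_surj (m : M B) : ∃ l ∈ B.L, π B l = m := by
  obtain ⟨l, hl⟩ := mk_surj B (Additive.toMul m)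
  exact ⟨l, l.2, by rw [π_of l.2, hl]; rfl⟩

theorem π_zero {l : G} (hl : l ∈ B.L) : π B l = 0 ↔ l ∈ B.Z := by
  rw [π_of hl, ofMul_eq_zero, mk_eq_one]

theorem π_mul {l m : G} (hl : l ∈ B.L) (hm : m ∈ B.L) : π B (l * m) = π B l + π B m := by
  rw [π_of hl, π_of hm, π_of (mul_mem hl hm), ← ofMul_mul, ← map_mul]; rfl

theorem two (m : M B) : m + m = 0 := by
  obtain ⟨l, hl, rfl⟩ := π_surj m
  rw [← π_mul hl hl, π_zero (mul_mem hl hl)]
  exact B.sq l hl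

theorem add_eq {m n : M B} : m + n = 0 ↔ n = m :=
  ⟨fun h => by linear_combination (norm := abel1) h - two m, fun h => h ▸ two n⟩

theorem π_inv {l : G} (hl : l ∈ B.L) : π B l⁻¹ = π B l := by
  rw [← add_eq, ← π_mul hl (inv_mem hl), mul_inv_cancel, π_zero (one_mem _)]
  exact one_mem _

theorem π_conj (a : S5) {l : G} (hl : l ∈ B.L) :
    π B (B.σ a * l * (B.σ a)⁻¹) = A B a (π B l) := by
  rw [π_of hl, π_of (B.conj_L (B.σ_mem a) hl)]; rfl

theorem π_conj' (a : S5) {l : G} (hl : l ∈ B.L) :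
    π B ((B.σ a)⁻¹ * l * B.σ a) = A B a⁻¹ (π B l) := by
  rw [← π_conj a⁻¹ hl, map_inv, inv_inv]

theorem conj_L' (a : S5) {l : G} (hl : l ∈ B.L) : (B.σ a)⁻¹ * l * B.σ a ∈ B.L := by
  simpa using B.conj_L (inv_mem (B.σ_mem a)) hl

theorem comm_eq (l s : G) : ⁅l, s⁆ = l * (s * l⁻¹ * s⁻¹) := by
  simp only [commutatorElement_def]; group

theorem comm_L (a : S5) {l : G} (hl : l ∈ B.L) : ⁅l, B.σ a⁆ ∈ B.L := by
  rw [comm_eq]; exact mul_mem hl (B.conj_L (B.σ_mem a) (inv_mem hl))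

theorem π_comm (a : S5) {l : G} (hl : l ∈ B.L) :
    π B ⁅l, B.σ a⁆ = π B l + A B a (π B l) := by
  rw [comm_eq, π_mul hl (B.conj_L (B.σ_mem a) (inv_mem hl)), π_conj a (inv_mem hl), π_inv hl]

theorem comm_Z (a : S5) {l : G} (hl : l ∈ B.L) : ⁅l, B.σ a⁆ ∈ B.Z ↔ A B a (π B l) = π B l := by
  rw [← π_zero (comm_L a hl), π_comm a hl, add_eq]

theorem A_A (a b : S5) (m : M B) : A B a (A B b m) = A B (a * b) m := by
  obtain ⟨l, hl, rfl⟩ := π_surj m
  rw [← π_conj b hl, ← π_conj a (B.conj_L (B.σ_mem b) hl), ← π_conj (a * b) hl, map_mul]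
  congr 1; group

theorem A_one (m : M B) : A B 1 m = m := by
  obtain ⟨l, hl, rfl⟩ := π_surj m
  rw [← π_conj 1 hl, map_one, one_mul, inv_one, mul_one]

theorem mem_V0 {l : G} : l ∈ B.V0 ↔ l ∈ B.L ∧ A B pf (π B l) = π B l :=
  B.mem_V0.trans (and_congr_right fun hl => comm_Z pf hl)

theorem cube {a : S5} (ha : orderOf a = 3) : a * a * a = 1 := by
  rw [← pow_orderOf_eq_one a, ha, pow_succ, pow_two]

theorem fix_mod {a : S5} (ha : orderOf a = 3) {l : G} (hl : l ∈ B.L) (h : ⁅l, B.σ a⁆ ∈ B.Z) :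
    l ∈ B.Z := by
  obtain ⟨z, hz⟩ : ∃ z, z = ⁅l, B.σ a⁆ := ⟨_, rfl⟩
  rw [← hz] at h
  have h1 : B.σ a * z = z * B.σ a := (B.cx a ha z (B.Z_le h)).2 h
  have h2 : l * B.σ a * l⁻¹ = z * B.σ a := by rw [hz, commutatorElement_def]; group
  have h3 : B.σ a * B.σ a * B.σ a = 1 := by rw [← map_mul, ← map_mul, cube ha, map_one]
  have h4 : (z * B.σ a) ^ 3 = 1 := by
    rw [← h2, conj_pow, pow_succ, pow_two, h3]; group
  rw [(show Commute z (B.σ a) from h1.symm).mul_pow, pow_succ (B.σ a), pow_two (B.σ a), h3,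
    mul_one, pow_succ, pow_two, B.sqZ z h, one_mul] at h4
  rw [h4, one_mul] at h2
  exact (B.cx a ha l hl).1 (mul_inv_eq_iff_eq_mul.1 h2).symm

theorem fixM {a : S5} (ha : orderOf a = 3) {m : M B} (h : A B a m = m) : m = 0 := by
  obtain ⟨l, hl, rfl⟩ := π_surj m
  exact (π_zero hl).2 (fix_mod ha hl ((comm_Z a hl).2 h))

theorem n3 {a : S5} (ha : orderOf a = 3) (m : M B) : m + A B a m + A B a⁻¹ m = 0 := by
  refine fixM ha ?_
  rw [map_add, map_add, A_A, A_A, mul_inv_cancel, A_one,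
    show a * a = a⁻¹ from eq_inv_of_mul_eq_one_left (cube ha)]
  abel

theorem o_x : orderOf px = 3 := orderOf_three (by decide +kernel) (by decide +kernel)
theorem o_xf : orderOf (px * pf) = 3 := orderOf_three (by decide +kernel) (by decide +kernel)
theorem o_rf : orderOf (pr * pf) = 3 := orderOf_three (by decide +kernel) (by decide +kernel)
theorem o_frfr : orderOf (pf * (pr * (pf * pr))) = 3 :=
  orderOf_three (by decide +kernel) (by decide +kernel)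

theorem cp1 (m : M B) : m + A B pg m + A B px⁻¹ (m + A B pf m) = 0 := by
  have h1 := congrArg (A B px) (n3 o_x m)
  have h2 := congrArg (A B px) (n3 o_xf m)
  simp only [map_add, A_A, map_zero] at h1 h2 ⊢
  rw [mul_inv_cancel, A_one, show px * px = px⁻¹ by decide +kernel] at h1
  rw [show px * (px * pf)⁻¹ = pg by decide +kernel,
    show px * (px * pf) = px⁻¹ * pf by decide +kernel] at h2
  linear_combination (norm := abel1) h1 + h2 - two (A B px m)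

theorem fg (m : M B) : A B pf m = m ↔ A B pg m = m := by
  have h := cp1 m
  constructor
  · intro e
    rwa [e, two, map_zero, add_zero, add_eq] at h
  · intro e
    rw [e, two, zero_add] at h
    have := congrArg (A B px) h
    rwa [A_A, mul_inv_cancel, A_one, map_zero, add_eq] at this

theorem ff (m : M B) : A B pf (A B pf m) = m := by
  rw [A_A, show pf * pf = 1 by decide +kernel, A_one]

theorem thM {m : M B} (h : A B pf m = m) : A B pr m + A B pf (A B pr m) + m = 0 := by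
  have h1 := n3 o_rf m
  rw [← A_A, h, show (pr * pf)⁻¹ = pf * pr by decide +kernel, ← A_A] at h1
  linear_combination (norm := abel1) h1

theorem comm_cen {m p z w : G} (h1 : Commute z m) (h2 : Commute z p) (h3 : Commute w m)
    (h4 : Commute w p) (h5 : Commute z w) : ⁅z * m, w * p⁆ = ⁅m, p⁆ := by
  have e1 : z * m * (w * p) = z * w * (m * p) := by
    rw [mul_assoc z, ← mul_assoc m, ← h3.eq]; group
  have e2 : w * p * (z * m) = z * w * (p * m) := by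
    rw [mul_assoc w, ← mul_assoc p, ← h2.eq, h5.eq]; group
  have e3 : Commute (z * w) ⁅m, p⁆ := by
    rw [commutatorElement_def]
    exact (((h1.mul_left h3).mul_right (h2.mul_left h4)).mul_right
      (h1.mul_left h3).inv_right).mul_right (h2.mul_left h4).inv_right
  calc ⁅z * m, w * p⁆ = z * m * (w * p) * (w * p * (z * m))⁻¹ := by
        rw [commutatorElement_def]; group
    _ = z * w * ⁅m, p⁆ * (z * w)⁻¹ := by rw [e1, e2, commutatorElement_def]; group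
    _ = ⁅m, p⁆ := by rw [e3.eq]; group

theorem perm4 : ∀ b : S5, b 4 = 4 →
    b⁻¹ * pf * b = pf ∨ b⁻¹ * pf * b = pg ∨ b⁻¹ * pf * b = pf * pg := by decide +kernel

theorem conj_V0 (k : B.K) (h : (B.θ k).1 4 = 4) {v : G} (hv : v ∈ B.V0) :
    k * v * (k : G)⁻¹ ∈ B.V0 := by
  obtain ⟨a, ha⟩ : ∃ a, a = (B.θ k).1⁻¹ * pf * (B.θ k).1 := ⟨_, rfl⟩
  have h1 : ⁅v, B.σ a⁆ ∈ B.Z := by
    have e := (mem_V0.1 hv).2
    rw [comm_Z a hv.1, ha]
    rcases perm4 _ h with e' | e' | e' <;> rw [e']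
    · exact e
    · exact (fg _).1 e
    · rw [← A_A, (fg _).1 e, e]
  have h2 : (k : G)⁻¹ * B.p0 * k * (B.σ a)⁻¹ ∈ B.L :=
    (B.ker (k⁻¹ * ⟨B.σ pf, B.σ_mem pf⟩ * k * ⟨B.σ a, B.σ_mem a⟩⁻¹)).1 (by
      rw [map_mul, map_mul, map_mul, map_inv, map_inv, B.θσ, B.θσ, ha]
      ext1
      · simp
      · simp)
  obtain ⟨l, hl⟩ : ∃ l, l = (k : G)⁻¹ * B.p0 * k * (B.σ a)⁻¹ := ⟨_, rfl⟩
  rw [← hl] at h2
  refine ⟨B.conj_L k.2 hv.1, ?_⟩
  have e : ⁅k * v * (k : G)⁻¹, B.p0⁆ = k * (⁅v, l⁆ * (l * ⁅v, B.σ a⁆ * l⁻¹)) * (k : G)⁻¹ := by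
    rw [hl]; simp only [commutatorElement_def]; group
  rw [e]
  exact B.conj_Z k.2 (mul_mem (B.comm v hv.1 l h2) (B.conj_Z (B.L_le h2) h1))

theorem s_Z [Finite G] {z : G} (hz : z ∈ B.Z) : B.σ ps * z = z * B.σ ps := by
  classical
  obtain ⟨C, hC⟩ : ∃ C : Subgroup G, C = B.Z ⊓ centralizer {B.σ ps} := ⟨_, rfl⟩
  have mC : ∀ c, c ∈ C ↔ c ∈ B.Z ∧ B.σ ps * c = c * B.σ ps := fun c => by
    rw [hC, mem_inf, mem_centralizer_singleton_iff, eq_comm]
  have hle : C ≤ B.Z := fun c hc => ((mC c).1 hc).1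
  have hs : B.σ ps * B.σ ps = 1 := by
    rw [← map_mul, show ps * ps = 1 by decide +kernel, map_one]
  have hne : C ≠ ⊥ := by
    have : B.Z ≠ ⊥ := fun e => by
      have := B.card_Z
      rw [e, card_bot] at this
      omega
    obtain ⟨⟨w, hw⟩, hw1⟩ := (ne_bot_iff_exists_ne_one).1 this
    have hw1 : w ≠ 1 := fun e => hw1 (Subtype.ext e)
    have hw' := B.conj_Z (B.σ_mem ps) hw
    have hi : (B.σ ps)⁻¹ = B.σ ps := inv_eq_of_mul_eq_one_right hs
    intro e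
    have h1 : w * (B.σ ps * w * (B.σ ps)⁻¹) ∈ C := (mC _).2 ⟨mul_mem hw hw', by
      conv_lhs => rw [zc B hw' (B.Z_le hw), hi]
      rw [hi]
      calc B.σ ps * (B.σ ps * w * B.σ ps * w) = (B.σ ps * B.σ ps) * w * B.σ ps * w := by group
        _ = w * B.σ ps * w * (B.σ ps * B.σ ps) := by rw [hs]; group
        _ = _ := by group⟩
    rw [e, mem_bot] at h1
    have h2 : w ∈ C := (mC _).2 ⟨hw, by
      have h3 := eq_inv_of_mul_eq_one_right h1
      rw [inv_eq_of_mul_eq_one_right (B.sqZ w hw)] at h3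
      rw [← mul_inv_eq_iff_eq_mul, h3]⟩
    rw [e, mem_bot] at h2
    exact hw1 h2
  let f : Function.End C := fun c => ⟨B.y * c * B.y⁻¹, (mC _).2
    ⟨B.conj_Z B.y_mem (hle c.2), by
      have h1 : Commute (B.σ ps) B.y := B.σy ps
      have h2 : Commute (B.σ ps) (c : G) := ((mC _).1 c.2).2
      exact ((h1.mul_right h2).mul_right h1.inv_right).eq⟩⟩
  have hf : ∀ (n : ℕ) (c : C), (((f ^ n) c : C) : G) = B.y ^ n * c * (B.y ^ n)⁻¹ := by
    intro n
    induction n with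
    | zero => intro c; simp [Function.End.one_def]
    | succ n ih =>
      intro c
      rw [pow_succ' f]
      change B.y * ((f ^ n) c : C) * B.y⁻¹ = _
      rw [ih, pow_succ']; group
  have h7 : f ^ 7 ^ 1 = 1 := by
    funext c
    refine Subtype.ext ?_
    rw [hf, pow_one, B.y_pow]; simp [Function.End.one_def]
  haveI : Fact (Nat.Prime 7) := ⟨by norm_num⟩
  haveI := Fintype.ofFinite C
  have hm := Equiv.Perm.card_fixedPoints_modEq h7
  have h1 : Fintype.card f.fixedPoints = 1 := by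
    rw [Fintype.card_eq_one_iff]
    refine ⟨⟨1, Subtype.ext (by simp [f])⟩, fun c => Subtype.ext (Subtype.ext ?_)⟩
    refine B.cy _ (B.Z_le (hle c.1.2)) ?_
    have := congrArg Subtype.val c.2
    exact mul_inv_eq_iff_eq_mul.1 this
  rw [h1, ← Nat.card_eq_fintype_card] at hm
  have h2 := card_le_of_le hle
  have h3 : 1 < Nat.card C := (one_lt_card_iff_ne_bot C).2 hne
  rw [B.card_Z] at h2
  have h4 : C = B.Z := eq_of_le_of_card_ge hle (by
    rw [B.card_Z]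
    unfold Nat.ModEq at hm
    omega)
  exact ((mC z).1 (h4 ▸ hz)).2

end Cfsg.Agent.PJ.M1

namespace Cfsg.Agent.PJ.Base

open Subgroup
open scoped commutatorElement

variable {G : Type*} [Group G] [Finite G] (B : Base G)

/-- True for 3-cycles by `cx`.  For `ps`: `C_Z(s) ≠ 1` (for `z ≠ 1` either `z s z s = 1` or it is a
nontrivial fixed element), it is `y`-invariant, and the `⟨y⟩`-orbit of `1 ≠ z ∈ Z` has 7 elements
(`y_pow`, `cy`), so it is `Z \\ 1`.  `S5` is generated by `ps` and 3-cycles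
(`Equiv.Perm.closure_three_cycles_eq_alternating`, or `decide`: every `a` is a product
`b c d` with `b, c` of order dividing 3 and `d ∈ {1, ps}`). -/
theorem σ_Z (a : S5) {z : G} (hz : z ∈ B.Z) : B.σ a * z = z * B.σ a := by
  have h3 : alternatingGroup (Fin 5) ≤ (centralizer {z}).comap B.σ := by
    rw [← Equiv.Perm.closure_three_cycles_eq_alternating, closure_le]
    intro b hb
    exact mem_centralizer_singleton_iff.2 ((B.cx b (Equiv.Perm.IsThreeCycle.orderOf hb) z (B.Z_le hz)).2 hz)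
  have h2 : ps ∈ (centralizer {z}).comap B.σ := mem_centralizer_singleton_iff.2 (M1.s_Z hz)
  refine mem_centralizer_singleton_iff.1 (show a ∈ (centralizer {z}).comap B.σ from ?_)
  rcases Int.units_eq_one_or (Equiv.Perm.sign a) with e | e
  · exact h3 (Equiv.Perm.mem_alternatingGroup.2 e)
  · refine (mul_mem_cancel_right h2).1 (h3 (Equiv.Perm.mem_alternatingGroup.2 ?_))
    rw [map_mul, e, ps, Equiv.Perm.sign_swap (by decide)]
    simp

/-- `σa l σa⁻¹ = l ζ`, so `l = l ζ³ = l ζ`. -/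
theorem fix_mod {a : S5} (ha : orderOf a = 3) {l : G} (hl : l ∈ B.L) (h : ⁅l, B.σ a⁆ ∈ B.Z) :
    l ∈ B.Z := by
  exact M1.fix_mod ha hl h

/-- `1 + a + a² = 0` on `L/Z`: the element is fixed by `σ a` modulo `Z`. -/
theorem norm3 {a : S5} (ha : orderOf a = 3) {l : G} (hl : l ∈ B.L) :
    l * (B.σ a * l * (B.σ a)⁻¹) * ((B.σ a)⁻¹ * l * B.σ a) ∈ B.Z := by
  have h1 := B.conj_L (B.σ_mem a) hl
  have h2 := M1.conj_L' a hl
  rw [← M1.π_zero (mul_mem (mul_mem hl h1) h2), M1.π_mul (mul_mem hl h1) h2, M1.π_mul hl h1,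
    M1.π_conj a hl, M1.π_conj' a hl]
  exact M1.n3 ha _

/-- `1 + p1 = x⁻¹ (1 + p0)`: add `norm3` for `px` and for `px * pf`, multiply by `x⁻²` and use
`px⁻¹ pf px pf = pg`. -/
theorem comm_p1 {l : G} (hl : l ∈ B.L) : ⁅l, B.p1⁆ * (B.x⁻¹ * ⁅l, B.p0⁆ * B.x) ∈ B.Z := by
  have h1 := M1.comm_L pg hl
  have h2 := M1.conj_L' px (M1.comm_L pf hl)
  unfold p0 p1 x
  rw [← M1.π_zero (mul_mem h1 h2), M1.π_mul h1 h2, M1.π_conj' px (M1.comm_L pf hl),
    M1.π_comm pf hl, M1.π_comm pg hl]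
  exact M1.cp1 _

theorem mem_V0' {l : G} : l ∈ B.V0 ↔ l ∈ B.L ∧ ⁅l, B.p1⁆ ∈ B.Z := by
  refine M1.mem_V0.trans (and_congr_right fun hl => ?_)
  rw [M1.fg]
  exact (M1.comm_Z pg hl).symm

theorem Z_le_V0 : B.Z ≤ B.V0 := by
  intro z hz
  refine M1.mem_V0.2 ⟨B.Z_le hz, ?_⟩
  rw [(M1.π_zero (B.Z_le hz)).2 hz, map_zero]

/-- `(1 + p0)² = 0`. -/
theorem comm_mem {l : G} (hl : l ∈ B.L) : ⁅l, B.p0⁆ ∈ B.V0 := by
  refine M1.mem_V0.2 ⟨M1.comm_L pf hl, ?_⟩
  unfold p0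
  rw [M1.π_comm pf hl, map_add, M1.ff, add_comm]

/-- `v` is fixed modulo `Z` by `p0` and `r p0 r`, so by the 3-cycle `pf * (pr * pf * pr)`. -/
theorem inf_r {v : G} (hv : v ∈ B.V0) (h : B.ρ v ∈ B.V0) : v ∈ B.Z := by
  have h1 := (M1.mem_V0.1 hv).2
  have h2 := (M1.mem_V0.1 h).2
  unfold ρ r at h2
  rw [M1.π_conj pr hv.1] at h2
  refine (M1.π_zero hv.1).1 (M1.fixM M1.o_frfr ?_)
  rw [← M1.A_A, ← M1.A_A, ← M1.A_A, h2, M1.A_A pr pr, show pr * pr = 1 by decide +kernel,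
    M1.A_one, h1]

/-- `(1 + p0) r v = v`: `norm3` for `pr * pf`, `p0 v = v`, then apply `r`. -/
theorem theta {v : G} (hv : v ∈ B.V0) : ⁅B.ρ v, B.p0⁆ * v ∈ B.Z := by
  have h1 := B.conj_L (B.σ_mem pr) hv.1
  have h2 := M1.comm_L pf h1
  unfold ρ r p0
  rw [← M1.π_zero (mul_mem h2 hv.1), M1.π_mul h2 hv.1, M1.π_comm pf h1, M1.π_conj pr hv.1]
  exact M1.thM (M1.mem_V0.1 hv).2

/-- `v' = ⁅l, p0⁆`, `v = l (ρ v')⁻¹` (`theta`). -/
theorem dec {l : G} (hl : l ∈ B.L) : ∃ v ∈ B.V0, ∃ v' ∈ B.V0, l = v * B.ρ v' := by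
  have hv := B.comm_mem hl
  have h1 : B.ρ ⁅l, B.p0⁆ ∈ B.L := B.conj_L (B.σ_mem pr) hv.1
  refine ⟨l * (B.ρ ⁅l, B.p0⁆)⁻¹, M1.mem_V0.2 ⟨mul_mem hl (inv_mem h1), ?_⟩, _, hv, by group⟩
  have h2 := M1.thM (M1.mem_V0.1 hv).2
  rw [M1.π_mul hl (inv_mem h1), M1.π_inv h1, map_add]
  unfold ρ r
  rw [M1.π_conj pr hv.1]
  have h3 : M1.π B ⁅l, B.p0⁆ = _ := M1.π_comm pf hl
  rw [← M1.add_eq]
  linear_combination (norm := abel1) h2 - h3

/-- `l ↦ ⁅l,p0⁆ Z` is a homomorphism `L → V0/Z` with kernel `V0`, onto by `theta`, so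
`2^15 / |V0| = |V0| / 8`.  (Or: `|V0 ⊔ ρ V0| |V0 ⊓ ρ V0| = |V0|²` with `dec`, `inf_r`.) -/
theorem card_V0 : Nat.card B.V0 = 512 := by
  let ψ : B.L →* Multiplicative (M1.M B) := MonoidHom.mk'
    (fun l => Multiplicative.ofAdd (M1.π B l + M1.A B pf (M1.π B l))) fun l m => by
      rw [← ofAdd_add, coe_mul, M1.π_mul l.2 m.2, map_add (M1.A B pf)]
      congr 1; abel
  let φ : B.V0 →* Multiplicative (M1.M B) := MonoidHom.mk'
    (fun l => Multiplicative.ofAdd (M1.π B l)) fun l m => by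
      rw [← ofAdd_add, coe_mul, M1.π_mul l.2.1 m.2.1]
  have k1 : ψ.ker = B.V0.subgroupOf B.L := by
    ext l
    rw [MonoidHom.mem_ker, mem_subgroupOf, M1.mem_V0, ← M1.add_eq]
    exact ⟨fun h => ⟨l.2, h⟩, fun h => h.2⟩
  have k2 : φ.ker = B.Z.subgroupOf B.V0 := by
    ext l
    rw [MonoidHom.mem_ker, mem_subgroupOf, ← M1.π_zero l.2.1]
    rfl
  have k3 : ψ.range = φ.range := by
    ext m
    constructor
    · rintro ⟨l, rfl⟩
      exact ⟨⟨_, B.comm_mem l.2⟩, congrArg Multiplicative.ofAdd (M1.π_comm pf l.2)⟩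
    · rintro ⟨v, rfl⟩
      refine ⟨⟨_, B.conj_L (B.σ_mem pr) v.2.1⟩, congrArg Multiplicative.ofAdd ?_⟩
      have := M1.thM (M1.mem_V0.1 v.2).2
      rw [M1.add_eq] at this
      change M1.π B (B.σ pr * v * (B.σ pr)⁻¹) + M1.A B pf (M1.π B (B.σ pr * v * (B.σ pr)⁻¹)) = _
      rw [M1.π_conj pr v.2.1, ← this]
  have c1 := ψ.ker.card_mul_index
  have c2 := φ.ker.card_mul_index
  rw [index_ker, k1, k3, B.card_L,
    Nat.card_congr (subgroupOfEquivOfLe (show B.V0 ≤ B.L from fun v hv => hv.1)).toEquiv] at c1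
  rw [index_ker, k2, Nat.card_congr (subgroupOfEquivOfLe B.Z_le_V0).toEquiv, B.card_Z] at c2
  rw [← c2] at c1 ⊢
  have : Nat.card φ.range * Nat.card φ.range = 64 * 64 := by
    rw [mul_assoc] at c1; omega
  rw [Nat.mul_self_inj.1 this]

/-- `v ≡ ⁅m,p0⁆ = m (p0 m p0)⁻¹` with `m = ρ v`, `c(p0 m p0, w) = p0 c(m, p0 w p0) p0 = c(m,w)`. -/
theorem V0_comm {v w : G} (hv : v ∈ B.V0) (hw : w ∈ B.V0) : v * w = w * v := by
  have hm : B.ρ v ∈ B.L := B.conj_L (B.σ_mem pr) hv.1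
  have h1 := B.theta hv
  obtain ⟨m, e⟩ : ∃ m, m = B.ρ v := ⟨_, rfl⟩
  rw [← e] at hm h1
  have z1 := B.comm w hw.1 m hm
  have z2 : ⁅w, B.p0⁆ ∈ B.Z := hw.2
  have h2 : w * ⁅m, B.p0⁆ * w⁻¹ = ⁅m, B.p0⁆ := by
    have h0 : ⁅⁅w, m⁆ * m, ⁅w, B.p0⁆ * B.p0⁆ = ⁅m, B.p0⁆ :=
      M1.comm_cen (M1.zc B z1 hm).symm (B.σ_Z pf z1).symm (M1.zc B z2 hm).symm
        (B.σ_Z pf z2).symm (M1.zc B z2 (B.Z_le z1))
    conv_rhs => rw [← h0]
    simp only [commutatorElement_def]; group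
  have h3 : Commute w ⁅m, B.p0⁆ := mul_inv_eq_iff_eq_mul.1 h2
  have h4 : Commute w (⁅m, B.p0⁆ * v) := M1.zc B h1 hw.1
  have h5 := h3.inv_right.mul_right h4
  rw [inv_mul_cancel_left] at h5
  exact h5.eq.symm

/-- `k⁻¹ p0 k = l σ(a)`, `l ∈ L`, `a ∈ {pf, pg, pf pg}` (`decide +kernel` over `S5`), and
`⁅v, l σ a⁆ ∈ Z`. -/
theorem norm_V0 (k : B.K) (h : (B.θ k).1 4 = 4) : (k : G) ∈ normalizer (B.V0 : Set G) := by
  refine mem_normalizer_iff.2 fun v => ⟨M1.conj_V0 k h, fun hv => ?_⟩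
  have := M1.conj_V0 k⁻¹ (by
    rw [map_inv, Prod.fst_inv, Equiv.Perm.inv_eq_iff_eq, h]) hv
  simpa [mul_assoc] using this

/-- `q(v) = v² ∈ Z` is multiplicative and `x`-invariant on `V0`; square `norm3`: `q(v)³ = 1`. -/
theorem V0_sq {v : G} (hv : v ∈ B.V0) : v * v = 1 := by
  have hx : B.σ px ∈ normalizer (B.V0 : Set G) :=
    B.norm_V0 ⟨_, B.σ_mem px⟩ (by rw [B.θσ]; decide +kernel)
  have h1 := (mem_normalizer_iff.1 hx v).1 hv
  have h2 := (mem_normalizer_iff''.1 hx v).1 hv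
  have h3 := B.sqZ _ (B.norm3 M1.o_x hv.1)
  have hz := B.sq v hv.1
  have hc := B.σ_Z px hz
  have c1 : Commute v (B.σ px * v * (B.σ px)⁻¹) := B.V0_comm hv h1
  have c2 : Commute (v * (B.σ px * v * (B.σ px)⁻¹)) ((B.σ px)⁻¹ * v * B.σ px) :=
    B.V0_comm (mul_mem hv h1) h2
  rw [← pow_two, c2.mul_pow, c1.mul_pow, conj_pow, pow_two ((B.σ px)⁻¹ * v * B.σ px), pow_two v,
    hc, mul_inv_cancel_right, B.sqZ _ hz, one_mul] at h3
  calc v * v = B.σ px * ((B.σ px)⁻¹ * v * B.σ px * ((B.σ px)⁻¹ * v * B.σ px)) * (B.σ px)⁻¹ := by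
        group
    _ = 1 := by rw [h3]; group

/-- `v = ⁅m,p0⁆ ζ` and `p0 ⁅m,p0⁆ p0 = ⁅m,p0⁆⁻¹`. -/
theorem p0_comm {v : G} (hv : v ∈ B.V0) : B.p0 * v = v * B.p0 := by
  have hm : B.ρ v ∈ B.L := B.conj_L (B.σ_mem pr) hv.1
  have h1 := B.theta hv
  obtain ⟨m, e⟩ : ∃ m, m = B.ρ v := ⟨_, rfl⟩
  rw [← e] at hm h1
  have h2 := B.V0_sq (B.comm_mem hm)
  have hp : B.p0⁻¹ = B.p0 := inv_eq_of_mul_eq_one_right (by
    unfold p0; rw [← map_mul, show pf * pf = 1 by decide +kernel, map_one])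
  have h3 : Commute B.p0 ⁅m, B.p0⁆ := by
    change B.p0 * ⁅m, B.p0⁆ = ⁅m, B.p0⁆ * B.p0
    conv_rhs => rw [eq_inv_of_mul_eq_one_left h2]
    rw [commutatorElement_inv, commutatorElement_def, commutatorElement_def]
    calc B.p0 * (m * B.p0 * m⁻¹ * B.p0⁻¹) = B.p0 * m * B.p0 * m⁻¹ * B.p0⁻¹ := by group
      _ = _ := by rw [hp]
  have h4 : Commute B.p0 (⁅m, B.p0⁆ * v) := B.σ_Z pf h1
  have h5 := h3.inv_right.mul_right h4
  rw [inv_mul_cancel_left] at h5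
  exact h5.eq

/-- Conjugate `p0_comm` by `x`. -/
theorem p1_comm {v : G} (hv : v ∈ B.V0) : B.p1 * v = v * B.p1 := by
  have hx : B.σ px ∈ normalizer (B.V0 : Set G) :=
    B.norm_V0 ⟨_, B.σ_mem px⟩ (by rw [B.θσ]; decide +kernel)
  have h2 := B.p0_comm ((mem_normalizer_iff''.1 hx v).1 hv)
  have e : B.p1 = B.σ px * B.p0 * (B.σ px)⁻¹ := by
    unfold p0 p1; rw [← perm_rel.1, map_mul, map_mul, map_inv]
  calc B.p1 * v = B.σ px * (B.p0 * ((B.σ px)⁻¹ * v * B.σ px)) * (B.σ px)⁻¹ := by rw [e]; group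
    _ = v * B.p1 := by rw [h2, e]; group

/-- `l = v ρ(v')`; `ρ v'` centralises `V0` and `ρ V0`, hence `L`. -/
theorem cent_L {l : G} (hl : l ∈ B.L) (h : ∀ v ∈ B.V0, l * v = v * l) : l ∈ B.V0 := by
  obtain ⟨v, hv, w, hw, rfl⟩ := B.dec hl
  refine mul_mem hv (B.Z_le_V0 ((B.cen _ (B.conj_L (B.σ_mem pr) hw.1)).2 fun m hm => ?_))
  obtain ⟨a, ha, b, hb, rfl⟩ := B.dec hm
  have h1 : Commute (B.ρ w) a := by
    have h2 : Commute (v * B.ρ w) a := h a ha
    have h3 : Commute v a := B.V0_comm hv ha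
    have h4 := h3.inv_left.mul_left h2
    rwa [inv_mul_cancel_left] at h4
  have h2 : Commute (B.ρ w) (B.ρ b) := by
    change B.ρ w * B.ρ b = B.ρ b * B.ρ w
    unfold ρ
    calc B.r * w * B.r⁻¹ * (B.r * b * B.r⁻¹) = B.r * (w * b) * B.r⁻¹ := by group
      _ = _ := by rw [B.V0_comm hw hb]; group
  exact (h1.mul_right h2).eq.symm

end Cfsg.Agent.PJ.Base
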